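import Mathlib
import Cfsg.Agent.Lib.SpGU.KOne

/-!
# A minimal block commuting with a field acting by self-adjoint operators
-/

set_option autoImplicit false
set_option linter.unusedSimpArgs false
set_option linter.unusedVariables false
set_option linter.unusedSectionVars false

namespace Cfsg.Agent.Lib.SpField

open Matrix Module Polynomial
open Cfsg.Agent.Lib.IsomBlock Cfsg.Agent.Lib.SpGU

universe u

variable {F : Type*} [Field F] {V : Type u} [AddCommGroup V] [Module F V] [FiniteDimensional F V]
variable {L : Type*} [Field L] [Algebra F L]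

theorem A_eq_zero (A : L →ₐ[F] Module.End F V) {a : L} (ha : a ≠ 0) {v : V} (h : A a v = 0) : v = 0 := by
  have h1 : A a⁻¹ (A a v) = v := by
    rw [← Module.End.mul_apply, ← map_mul, inv_mul_cancel₀ ha, map_one]
    rfl
  rw [← h1, h, map_zero]

/-- The restriction of an algebra action to a stable subspace. -/
def restrictAlg (A : L →ₐ[F] Module.End F V) (U : Submodule F V) (hU : ∀ a, ∀ u ∈ U, A a u ∈ U) : L →ₐ[F] Module.End F U where
  toFun a := (A a).restrict (hU a)
  map_one' := by
    apply LinearMap.ext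
    intro u
    apply Subtype.ext
    show A 1 (u : V) = u
    rw [map_one]
    rfl
  map_mul' a b := by
    apply LinearMap.ext
    intro u
    apply Subtype.ext
    show A (a * b) (u : V) = A a (A b u)
    rw [map_mul]
    rfl
  map_zero' := by
    apply LinearMap.ext
    intro u
    apply Subtype.ext
    show A 0 (u : V) = 0
    rw [map_zero]
    rfl
  map_add' a b := by
    apply LinearMap.ext
    intro u
    apply Subtype.ext
    show A (a + b) (u : V) = A a u + A b u
    rw [map_add]
    rfl
  commutes' c := by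
    apply LinearMap.ext
    intro u
    apply Subtype.ext
    show A (algebraMap F L c) (u : V) = c • (u : V)
    rw [AlgHom.commutes]
    rfl

theorem restrictAlg_apply (A : L →ₐ[F] Module.End F V) (U : Submodule F V) (hU : ∀ a, ∀ u ∈ U, A a u ∈ U) (a : L) (u : U) :
    ((restrictAlg A U hU a u : U) : V) = A a u := rfl

theorem dvd_finrank_of_stable (A : L →ₐ[F] Module.End F V) (U : Submodule F V) (hU : ∀ a, ∀ u ∈ U, A a u ∈ U) :
    finrank F L ∣ finrank F U := by
  let A' := restrictAlg A U hU
  letI : Module L U := Module.compHom U A'.toRingHom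
  have hsm : ∀ (a : L) (u : U), a • u = A' a u := fun _ _ => rfl
  haveI : IsScalarTower F L U := ⟨fun c a u => by
    rw [hsm, hsm, map_smul]
    rfl⟩
  exact Dvd.intro _ (Module.finrank_mul_finrank F L U)

theorem dvd_of_frob [Fintype F] [Finite L] {e : ℕ} (h : ∀ a : L, a ^ (Fintype.card F ^ e) = a) : finrank F L ∣ e := by
  rw [← FiniteField.orderOf_frobeniusAlgHom F L]
  apply orderOf_dvd_of_pow_eq_one
  apply AlgHom.ext
  intro x
  simp_rw [AlgHom.coe_pow, FiniteField.coe_frobeniusAlgHom, pow_iterate, AlgHom.one_apply]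
  exact h x

variable [Fintype F] [Finite L] {r q : ℕ}

/-- The divisibility forced by a commuting self-adjoint field on a block of minimal dimension. -/
theorem K2 [hrf : Fact r.Prime] (hq : Fintype.card F = q) (hr2 : r ≠ 2) (hrF : (r : F) ≠ 0)
    {B : V →ₗ[F] V →ₗ[F] F} (halt : ∀ v, B v v = 0) (hnd : ∀ v, (∀ w, B v w = 0) → v = 0) {T : V →ₗ[F] V}
    (hiso : ∀ u v, B (T u) (T v) = B u v) (hTr : T ^ r = 1) (hfree : ∀ u, T u = u → u = 0) (hfin : finrank F V = blockDim r q)
    (A : L →ₐ[F] Module.End F V) (hself : ∀ a u v, B (A a u) v = B u (A a v)) (halt' : ∀ a v, B (A a v) v = 0)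
    (hcomm : ∀ a v, A a (T v) = T (A a v)) :
    finrank F L ∣ blockDim r q / 2 := by
  classical
  have hr : r.Prime := hrf.out
  have hr0 : r ≠ 0 := hr.ne_zero
  have hrodd : Odd r := hr.odd_of_ne_two hr2
  have hq0 : q ≠ 0 := by
    rw [← hq]
    exact Fintype.card_ne_zero
  have hB : GoodForm B := Or.inl halt
  have hanti : ∀ a b, B a b = - B b a := by
    intro a b
    have h1 := halt (a + b)
    simp only [map_add, LinearMap.add_apply, halt, zero_add, add_zero] at h1
    linear_combination h1
  set i := orderOf (q : ZMod r) with hi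
  have hpos := blockDim_pos hq hrF
  have hnt : Nontrivial V := by
    apply Module.nontrivial_of_finrank_pos (R := F)
    omega
  obtain ⟨v, hv0⟩ := exists_ne (0 : V)
  have hv : T v ≠ v := fun h => hv0 (hfree v h)
  have hmul : (X - C 1 : F[X]) * cyclotomic r F = X ^ r - 1 := Cfsg.Agent.Lib.PrimOrder.mul_cyc r
  have hkill : ∀ y, aeval T (X ^ r - 1 : F[X]) y = 0 := by
    intro y
    rw [map_sub, map_pow, aeval_X, hTr, map_one, sub_self]
    rfl
  have hw0 : T v - v ≠ 0 := sub_ne_zero.mpr hv
  have hwk : aeval T (cyclotomic r F) (T v - v) = 0 := by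
    have h1 : T v - v = aeval T (X - C 1 : F[X]) v := by simp
    rw [h1, ← aeval_mul_apply, mul_comm, hmul]
    exact hkill v
  obtain ⟨h, hh, hhd, w', hw'0, hw'⟩ := exists_factor_vec T _ _ rfl (cyclotomic_ne_zero r F) _ hw0 hwk
  have hdeg : h.natDegree = i := natDegree_factor hq hrF h hh hhd
  obtain ⟨U, huU, hUinv, hUfin, hUk, hUgen, hUs⟩ := exists_irr_span T h hh w' hw'0 hw'
  rw [hdeg] at hUfin
  have hi0 : i ≠ 0 := by
    rw [← hdeg]
    exact hh.natDegree_pos.ne'
  by_cases hev : Even i
  · obtain ⟨e, he⟩ := hev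
    have hbd : blockDim r q = i := by
      unfold blockDim
      rw [if_pos ⟨e, he⟩]
    have hfinV : finrank F V = i := by rw [hfin, hbd]
    have hUtop : U = ⊤ := by
      apply Submodule.eq_top_of_finrank_eq
      rw [hUfin, hfinV]
    have hQ : r ∣ q ^ e + 1 := by
      haveI : Fact r.Prime := hrf
      have h1 : ((q : ZMod r) ^ e) * ((q : ZMod r) ^ e) = 1 := by
        rw [← pow_add, ← he, hi, pow_orderOf_eq_one]
      have h2' : (q : ZMod r) ^ e ≠ 1 := pow_ne_one_of_lt_orderOf (by omega) (by omega)
      have h3 : ((q : ZMod r) ^ e - 1) * ((q : ZMod r) ^ e + 1) = 0 := by linear_combination h1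
      have h4 : (q : ZMod r) ^ e + 1 = 0 := (mul_eq_zero.mp h3).resolve_left (sub_ne_zero.mpr h2')
      apply (ZMod.natCast_eq_zero_iff _ _).mp
      push_cast
      exact h4
    have hTQ : T ^ (q ^ e) = T ^ (r - 1) := by
      obtain ⟨k, hk⟩ := hQ
      have h1 : T ^ (q ^ e) * T = 1 := by
        rw [← pow_succ, hk, pow_mul, hTr, one_pow]
      calc T ^ (q ^ e) = T ^ (q ^ e) * (T * T ^ (r - 1)) := by rw [T_mul_inv hr0 hTr, mul_one]
        _ = T ^ (r - 1) := by rw [← mul_assoc, h1, one_mul]
    have hc2 : blockDim r q / 2 = e := by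
      rw [hbd, he]
      omega
    rw [hc2]
    apply dvd_of_frob
    intro a
    obtain ⟨g, hg⟩ := hUgen (A a w') (by rw [hUtop]; trivial)
    have hτg : A a = aeval T g := by
      apply LinearMap.ext
      intro u
      obtain ⟨f, rfl⟩ := hUgen u (by rw [hUtop]; trivial)
      rw [comm_aeval (hcomm a), hg, aeval_comm]
    have hform : ∀ u y, B u (A (a ^ (q ^ e)) y) = B u (A a y) := by
      intro u y
      rw [← hself a u y]
      conv_lhs => rw [map_pow, hτg, ← map_pow, ← expand_card_pow hq, Polynomial.expand_aeval, hTQ, ← form_aeval hiso hr0 hTr]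
      rw [hτg]
    have h0 : A (a ^ (q ^ e) - a) w' = 0 := by
      have h1 : A (a ^ (q ^ e) - a) w' = A (a ^ (q ^ e)) w' - A a w' := by
        rw [map_sub]
        rfl
      rw [h1]
      apply hnd
      intro y
      rw [map_sub, LinearMap.sub_apply, hanti (A (a ^ (q ^ e)) w') y, hform, ← hanti, sub_self]
    rw [hq]
    by_contra hne
    exact hw'0 (A_eq_zero A (sub_ne_zero.mpr hne) h0)
  · have hbd : blockDim r q = 2 * i := by
      unfold blockDim
      rw [if_neg hev]
    have hfinV : finrank F V = 2 * i := by rw [hfin, hbd]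
    have hc2 : blockDim r q / 2 = i := by
      rw [hbd]
      omega
    rw [hc2, ← hUfin]
    have hoddU : ¬ Even (finrank F U) := by
      rw [hUfin]
      exact hev
    have hfreeU : FixFree T U := fun u _ hu => hfree u hu
    have hUti : ∀ a ∈ U, ∀ b ∈ U, B a b = 0 :=
      (rad_dichotomy hB hiso hr0 hTr hUinv hUs).resolve_left (fun hnd' => hoddU (even_of_fixfree hB hiso hrodd hTr hnd' hUinv hfreeU))
    apply dvd_finrank_of_stable A U
    intro a
    by_cases ha : a = 0
    · intro u _
      rw [ha, map_zero]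
      exact U.zero_mem
    let B' : V →ₗ[F] V →ₗ[F] F := B.compl₂ (A a)
    have hB'a : ∀ x y, B' x y = B x (A a y) := fun _ _ => rfl
    have hB' : GoodForm B' := Or.inl fun x => by
      rw [hB'a, hanti, halt', neg_zero]
    have hisoB' : ∀ x y, B' (T x) (T y) = B' x y := by
      intro x y
      rw [hB'a, hB'a, hcomm, hiso]
    have hUti' : ∀ x ∈ U, ∀ y ∈ U, B' x y = 0 :=
      (rad_dichotomy hB' hisoB' hr0 hTr hUinv hUs).resolve_left (fun hnd' => hoddU (even_of_fixfree hB' hisoB' hrodd hTr hnd' hUinv hfreeU))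
    have hτinj : Function.Injective (A a) := by
      rw [← LinearMap.ker_eq_bot, LinearMap.ker_eq_bot']
      intro x hx
      exact A_eq_zero A ha hx
    have hτUfin : finrank F (U.map (A a)) = finrank F U :=
      (LinearEquiv.finrank_eq (Submodule.equivMapOfInjective (A a) hτinj U)).symm
    have hτUinv : InvOn T (U.map (A a)) := by
      rintro _ ⟨x, hx, rfl⟩
      exact ⟨T x, hUinv x hx, hcomm a x⟩
    rcases hUs (U ⊓ U.map (A a)) (inv_inf hUinv hτUinv) inf_le_left with h0 | h0
    · exfalso
      have hdim := Submodule.finrank_sup_add_finrank_inf_eq U (U.map (A a))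
      rw [h0, finrank_bot, add_zero, hτUfin, hUfin] at hdim
      have htop : U ⊔ U.map (A a) = ⊤ := by
        apply Submodule.eq_top_of_finrank_eq
        rw [hdim, hfinV]
        ring
      apply hw'0
      apply hnd
      intro y
      have hy : y ∈ U ⊔ U.map (A a) := by rw [htop]; trivial
      obtain ⟨x, hx, _, ⟨b, hb, rfl⟩, rfl⟩ := Submodule.mem_sup.mp hy
      rw [map_add, hUti w' huU x hx]
      exact (zero_add _).trans (hUti' w' huU b hb)
    · have hle : U ≤ U.map (A a) := by
        intro u hu
        have h3 : u ∈ U ⊓ U.map (A a) := by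
          rw [h0]
          exact hu
        exact h3.2
      have heq : U.map (A a) = U := (Submodule.eq_of_le_of_finrank_eq hle (by rw [hτUfin])).symm
      intro u hu
      rw [← heq]
      exact ⟨u, hu, rfl⟩

end Cfsg.Agent.Lib.SpField
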