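import Mathlib
import Cfsg.Agent.Lib.SpGU.Inv
import Cfsg.Agent.Lib.SympT

/-!
# Field subalgebras consisting of self-adjoint operators: low rank elements of the normalizer
-/

set_option autoImplicit false
set_option linter.unusedSimpArgs false
set_option linter.unusedVariables false
set_option linter.unusedSectionVars false

namespace Cfsg.Agent.Lib.SpField

open Matrix Module Cfsg Cfsg.Geo
open Cfsg.Agent.Lib.SympForm Cfsg.Agent.Lib.FieldSub Cfsg.Agent.Lib.SpInvol Cfsg.Agent.Lib.SympT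
open Cfsg.Agent.Lib.SpGU

variable {F : Type*} [Field F] {d k : ℕ}
variable {K : Subalgebra F (Matrix (Fin d ⊕ Fin d) (Fin d ⊕ Fin d) F)}

theorem exists_nonscalar (hK : IsFieldSubalgebra k K) (hk : 2 ≤ k) :
    ∃ a ∈ K, ∀ s : F, a ≠ s • (1 : Matrix (Fin d ⊕ Fin d) (Fin d ⊕ Fin d) F) := by
  by_contra hcon
  push Not at hcon
  have hfin := hK.finrank_eq
  have := finrank_le_one (R := F) (1 : K) (fun w => by
    obtain ⟨s, hs⟩ := hcon w.1 w.2
    refine ⟨s, Subtype.ext ?_⟩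
    rw [hs]
    rfl)
  omega

theorem vec_zero_of_K (hK : IsFieldSubalgebra k K) {c : Matrix (Fin d ⊕ Fin d) (Fin d ⊕ Fin d) F} (hc : c ∈ K) (h0 : c ≠ 0)
    {v : Fin d ⊕ Fin d → F} (h : c *ᵥ v = 0) : v = 0 := by
  obtain ⟨c', hc', -, h2⟩ := inv_mem_K hK hc h0
  have h3 : c' *ᵥ (c *ᵥ v) = v := by
    rw [Matrix.mulVec_mulVec, h2, Matrix.one_mulVec]
  rw [← h3, h, Matrix.mulVec_zero]

/-- An element of the normalizer moving few vectors centralizes `K`. -/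
theorem comm_of_rank_lt (hK : IsFieldSubalgebra k K) (y : GL (Fin d ⊕ Fin d) F) (hy : y ∈ subalgebraNormalizer K)
    (hrank : finrank F (LinearMap.range (Matrix.toLin' (y : Matrix (Fin d ⊕ Fin d) (Fin d ⊕ Fin d) F) - LinearMap.id)) < d)
    {a : Matrix (Fin d ⊕ Fin d) (Fin d ⊕ Fin d) F} (ha : a ∈ K) : (y : Matrix (Fin d ⊕ Fin d) (Fin d ⊕ Fin d) F) * a = a * y := by
  classical
  set a' := (y : Matrix (Fin d ⊕ Fin d) (Fin d ⊕ Fin d) F) * a * ((y⁻¹ : GL (Fin d ⊕ Fin d) F) : Matrix (Fin d ⊕ Fin d) (Fin d ⊕ Fin d) F) with ha'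
  have ha'K : a' ∈ K := (hy a).mp ha
  have hiy : ((y⁻¹ : GL (Fin d ⊕ Fin d) F) : Matrix (Fin d ⊕ Fin d) (Fin d ⊕ Fin d) F) * (y : Matrix (Fin d ⊕ Fin d) (Fin d ⊕ Fin d) F) = 1 := by
    rw [← Units.val_mul, inv_mul_cancel]; rfl
  have hrel : a' * y = (y : Matrix (Fin d ⊕ Fin d) (Fin d ⊕ Fin d) F) * a := by
    rw [ha', Matrix.mul_assoc, hiy, Matrix.mul_one]
  by_contra hne
  have hc0 : a' - a ≠ 0 := by
    intro h
    apply hne
    rw [← hrel, sub_eq_zero.mp h]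
  obtain ⟨c', hc', h1, -⟩ := inv_mem_K hK (K.sub_mem ha'K ha) hc0
  let Y1 : (Fin d ⊕ Fin d → F) →ₗ[F] (Fin d ⊕ Fin d → F) := Matrix.toLin' (y : Matrix (Fin d ⊕ Fin d) (Fin d ⊕ Fin d) F) - LinearMap.id
  have hY1 : ∀ v, Y1 v = (y : Matrix (Fin d ⊕ Fin d) (Fin d ⊕ Fin d) F) *ᵥ v - v := fun v => by
    show Matrix.toLin' (y : Matrix (Fin d ⊕ Fin d) (Fin d ⊕ Fin d) F) v - v = _
    rw [Matrix.toLin'_apply]
  let W := LinearMap.range Y1
  let aW := W.map (Matrix.toLin' a)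
  have hmem : ∀ u, (a' - a) *ᵥ ((y : Matrix (Fin d ⊕ Fin d) (Fin d ⊕ Fin d) F) *ᵥ u) ∈ W ⊔ aW := by
    intro u
    have h3 : (a' - a) *ᵥ ((y : Matrix (Fin d ⊕ Fin d) (Fin d ⊕ Fin d) F) *ᵥ u) = Y1 (a *ᵥ u) - Matrix.toLin' a (Y1 u) := by
      simp only [hY1, Matrix.toLin'_apply, Matrix.sub_mulVec, Matrix.mulVec_sub]
      rw [Matrix.mulVec_mulVec, hrel, ← Matrix.mulVec_mulVec]
      abel
    rw [h3]
    apply Submodule.sub_mem
    · exact Submodule.mem_sup_left ⟨_, rfl⟩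
    · exact Submodule.mem_sup_right ⟨_, ⟨_, rfl⟩, rfl⟩
  have htop : W ⊔ aW = ⊤ := by
    rw [eq_top_iff]
    intro v _
    have h3 : v = (a' - a) *ᵥ ((y : Matrix (Fin d ⊕ Fin d) (Fin d ⊕ Fin d) F) *ᵥ (((y⁻¹ : GL (Fin d ⊕ Fin d) F) : Matrix (Fin d ⊕ Fin d) (Fin d ⊕ Fin d) F) *ᵥ (c' *ᵥ v))) := by
      rw [gl_mulVec_inv, Matrix.mulVec_mulVec, h1, Matrix.one_mulVec]
    rw [h3]
    exact hmem _
  have h4 := Submodule.finrank_add_le_finrank_add_finrank W aW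
  rw [htop, finrank_top] at h4
  have h5 : finrank F aW ≤ finrank F W := Submodule.finrank_map_le _ _
  have h6 : finrank F (Fin d ⊕ Fin d → F) = 2 * d := by simp [two_mul]
  have h7 : finrank F W < d := hrank
  omega

local notation "hfS" => (sympForm_isSymplectic (m := d) (F := F))

/-- Transvections do not normalize `K`. -/
theorem transv_not_normalizer (hK : IsFieldSubalgebra k K) (hk : 2 ≤ k) (hd : 2 ≤ d) {w : Fin d ⊕ Fin d → F} (hw : w ≠ 0) :
    tvS hfS w 1 ∉ subalgebraNormalizer K := by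
  classical
  intro hN
  have hrange : finrank F (LinearMap.range (Matrix.toLin' ((tvS hfS w 1 : GL (Fin d ⊕ Fin d) F) : Matrix (Fin d ⊕ Fin d) (Fin d ⊕ Fin d) F) - LinearMap.id)) ≤ 1 := by
    have h1 : LinearMap.range (Matrix.toLin' ((tvS hfS w 1 : GL (Fin d ⊕ Fin d) F) : Matrix (Fin d ⊕ Fin d) (Fin d ⊕ Fin d) F) - LinearMap.id) ≤ Submodule.span F {w} := by
      rintro _ ⟨u, rfl⟩
      rw [LinearMap.sub_apply, Matrix.toLin'_apply, tvS_apply, LinearMap.id_apply, add_sub_cancel_left]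
      exact Submodule.smul_mem _ _ (Submodule.mem_span_singleton_self w)
    exact (Submodule.finrank_mono h1).trans (finrank_span_le_card _ |>.trans (by simp))
  obtain ⟨a, ha, hans⟩ := exists_nonscalar hK hk
  have hcomm := comm_of_rank_lt hK _ hN (by omega) ha
  obtain ⟨u, hu⟩ := exists_sympForm_ne_zero hw
  have hu' : sympForm d F u w ≠ 0 := by
    intro h
    apply hu
    rw [sympForm_antisymm, h, neg_zero]
  have h1 : ((tvS hfS w 1 : GL (Fin d ⊕ Fin d) F) : Matrix (Fin d ⊕ Fin d) (Fin d ⊕ Fin d) F) *ᵥ (a *ᵥ u) =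
      a *ᵥ (((tvS hfS w 1 : GL (Fin d ⊕ Fin d) F) : Matrix (Fin d ⊕ Fin d) (Fin d ⊕ Fin d) F) *ᵥ u) := by
    rw [Matrix.mulVec_mulVec, Matrix.mulVec_mulVec, hcomm]
  rw [tvS_apply, tvS_apply, Matrix.mulVec_add, Matrix.mulVec_smul, one_mul, one_mul] at h1
  have h4 : sympForm d F (a *ᵥ u) w • w = sympForm d F u w • (a *ᵥ w) := add_left_cancel h1
  set lam := (sympForm d F u w)⁻¹ * sympForm d F (a *ᵥ u) w with hlam
  have h5 : a *ᵥ w = lam • w := by
    rw [hlam, ← smul_smul, h4, smul_smul, inv_mul_cancel₀ hu', one_smul]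
  have h6 : (a - lam • (1 : Matrix (Fin d ⊕ Fin d) (Fin d ⊕ Fin d) F)) *ᵥ w = 0 := by
    rw [Matrix.sub_mulVec, h5, Matrix.smul_mulVec, Matrix.one_mulVec, sub_self]
  exact hw (vec_zero_of_K hK (K.sub_mem ha (scalar_mem lam)) (sub_ne_zero.mpr (hans lam)) h6)

/-- A centralizing involution cannot have a `-1`-eigenspace of dimension two. -/
theorem invol_not_comm (hK : IsFieldSubalgebra k K) (hk : 2 ≤ k) (h2 : (2 : F) ≠ 0)
    (hKf : IsSelfAdjointFor (sympForm d F) K) (hKalt : ∀ a ∈ K, ∀ v : Fin d ⊕ Fin d → F, sympForm d F (a *ᵥ v) v = 0)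
    (y : GL (Fin d ⊕ Fin d) F) (hy : y ∈ spGL d F)
    (hy2 : (y : Matrix (Fin d ⊕ Fin d) (Fin d ⊕ Fin d) F) * y = 1)
    (hrank : finrank F (LinearMap.range (Matrix.toLin' (y : Matrix (Fin d ⊕ Fin d) (Fin d ⊕ Fin d) F) - LinearMap.id)) = 2)
    (hcomm : ∀ a ∈ K, (y : Matrix (Fin d ⊕ Fin d) (Fin d ⊕ Fin d) F) * a = a * y) : False := by
  classical
  let Y1 : (Fin d ⊕ Fin d → F) →ₗ[F] (Fin d ⊕ Fin d → F) := Matrix.toLin' (y : Matrix (Fin d ⊕ Fin d) (Fin d ⊕ Fin d) F) - LinearMap.id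
  have hY1 : ∀ v, Y1 v = (y : Matrix (Fin d ⊕ Fin d) (Fin d ⊕ Fin d) F) *ᵥ v - v := fun v => by
    show Matrix.toLin' (y : Matrix (Fin d ⊕ Fin d) (Fin d ⊕ Fin d) F) v - v = _
    rw [Matrix.toLin'_apply]
  let W := LinearMap.range Y1
  have hWm : ∀ u, (y : Matrix (Fin d ⊕ Fin d) (Fin d ⊕ Fin d) F) *ᵥ u - u ∈ W := fun u => ⟨u, hY1 u⟩
  have hYY : ∀ u, (y : Matrix (Fin d ⊕ Fin d) (Fin d ⊕ Fin d) F) *ᵥ ((y : Matrix (Fin d ⊕ Fin d) (Fin d ⊕ Fin d) F) *ᵥ u) = u := by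
    intro u
    rw [Matrix.mulVec_mulVec, hy2, Matrix.one_mulVec]
  have hneg : ∀ v ∈ W, (y : Matrix (Fin d ⊕ Fin d) (Fin d ⊕ Fin d) F) *ᵥ v = - v := by
    rintro _ ⟨u, rfl⟩
    rw [hY1, Matrix.mulVec_sub, hYY]
    abel
  have hWK : ∀ a ∈ K, ∀ v ∈ W, a *ᵥ v ∈ W := by
    rintro a ha _ ⟨u, rfl⟩
    rw [hY1, Matrix.mulVec_sub, Matrix.mulVec_mulVec, ← hcomm a ha, ← Matrix.mulVec_mulVec]
    exact hWm _
  have hWne : W ≠ ⊥ := by
    intro h
    have h3 : finrank F W = 2 := hrank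
    rw [h, finrank_bot] at h3
    omega
  obtain ⟨v, hv, hv0⟩ := (Submodule.ne_bot_iff W).mp hWne
  obtain ⟨a, ha, hans⟩ := exists_nonscalar hK hk
  have hli : LinearIndependent F ![v, a *ᵥ v] := by
    rw [LinearIndependent.pair_iff]
    intro s t hst
    have ht : t = 0 := by
      by_contra ht
      have h3 : (a + (t⁻¹ * s) • (1 : Matrix (Fin d ⊕ Fin d) (Fin d ⊕ Fin d) F)) *ᵥ v = 0 := by
        rw [Matrix.add_mulVec, Matrix.smul_mulVec, Matrix.one_mulVec]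
        have h4 : a *ᵥ v = t⁻¹ • (t • (a *ᵥ v)) := by rw [smul_smul, inv_mul_cancel₀ ht, one_smul]
        rw [h4, eq_neg_of_add_eq_zero_right hst, smul_neg, ← smul_smul]
        abel
      have h4 : a + (t⁻¹ * s) • (1 : Matrix (Fin d ⊕ Fin d) (Fin d ⊕ Fin d) F) ≠ 0 := by
        intro h5
        apply hans (-(t⁻¹ * s))
        rw [neg_smul]
        exact eq_neg_of_add_eq_zero_left h5
      exact hv0 (vec_zero_of_K hK (K.add_mem ha (scalar_mem _)) h4 h3)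
    subst ht
    rw [zero_smul, add_zero] at hst
    exact ⟨(smul_eq_zero.mp hst).resolve_right hv0, rfl⟩
  have hspan : Submodule.span F (Set.range ![v, a *ᵥ v]) = W := by
    apply Submodule.eq_of_le_of_finrank_eq
    · rw [Submodule.span_le]
      rintro _ ⟨i, rfl⟩
      fin_cases i
      · exact hv
      · exact hWK a ha v hv
    · rw [finrank_span_eq_card hli]
      have h3 : finrank F W = 2 := hrank
      rw [h3]
      simp
  have hvW : ∀ w ∈ W, sympForm d F v w = 0 := by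
    intro w hw
    rw [← hspan, Matrix.range_cons, Matrix.range_cons, Matrix.range_empty, Set.union_empty, Set.singleton_union, Submodule.mem_span_pair] at hw
    obtain ⟨s, t, rfl⟩ := hw
    rw [sympForm_add_right, sympForm_smul_right, sympForm_smul_right, sympForm_self, sympForm_antisymm v, hKalt a ha v]
    ring
  apply hv0
  apply Cfsg.Agent.Lib.SympWitt.eq_zero_of_forall_sympForm
  intro z
  -- decompose
  have hz : sympForm d F v ((y : Matrix (Fin d ⊕ Fin d) (Fin d ⊕ Fin d) F) *ᵥ z) = - sympForm d F v z := by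
    have h3 : sympForm d F ((y : Matrix (Fin d ⊕ Fin d) (Fin d ⊕ Fin d) F) *ᵥ v) ((y : Matrix (Fin d ⊕ Fin d) (Fin d ⊕ Fin d) F) *ᵥ z) = sympForm d F v z := hy v z
    rw [hneg v hv, sympForm_neg_left] at h3
    linear_combination -h3
  have h3 := hvW _ (hWm z)
  rw [sympForm_sub_right, hz] at h3
  have h4 : (2 : F) * sympForm d F v z = 0 := by linear_combination -h3
  exact (mul_eq_zero.mp h4).resolve_left h2

end Cfsg.Agent.Lib.SpField
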