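import Mathlib
import Cfsg.Agent.Lib.SpField.Basic
import Cfsg.Agent.Lib.SpField.KTwo
import Cfsg.Agent.Lib.SpGU.Bad
import Cfsg.Agent.Lib.SpGU.Index
import Cfsg.Agent.Lib.ExtSpE

/-!
# Field subalgebras of self-adjoint operators through an abstract field `L`
-/

set_option autoImplicit false
set_option linter.unusedSimpArgs false
set_option linter.unusedVariables false
set_option linter.unusedSectionVars false

namespace Cfsg.Agent.Lib.SpField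

open Matrix Module Cfsg Cfsg.Geo
open Cfsg.Agent.Lib.SympForm Cfsg.Agent.Lib.FieldSub Cfsg.Agent.Lib.SpInvol Cfsg.Agent.Lib.SympT
open Cfsg.Agent.Lib.SpGU Cfsg.Agent.Lib.IsomBlock Cfsg.Agent.Lib.MatConj

universe u

section alpha

variable {F : Type*} [Field F] [Finite F] {d : ℕ} {L : Type*} [Field L] [Algebra F L] [Module.Finite F L]
  {K : Subalgebra F (Matrix (Fin d ⊕ Fin d) (Fin d ⊕ Fin d) F)} {φ : L →ₐ[F] Matrix (Fin d ⊕ Fin d) (Fin d ⊕ Fin d) F}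

theorem exists_alphaE (hφ : Function.Injective φ) (hKφ : ∀ k, k ∈ K ↔ ∃ a, φ a = k) (y : GL (Fin d ⊕ Fin d) F) (hy : y ∈ subalgebraNormalizer K) :
    ∃ αE : L ≃ₐ[F] L, ∀ a, (y : Matrix (Fin d ⊕ Fin d) (Fin d ⊕ Fin d) F) * φ a = φ (αE a) * (y : Matrix (Fin d ⊕ Fin d) (Fin d ⊕ Fin d) F) := by
  classical
  haveI : Finite L := Module.finite_of_finite F
  have hα : ∀ a, ∃ b, (y : Matrix (Fin d ⊕ Fin d) (Fin d ⊕ Fin d) F) * φ a * ((y⁻¹ : GL (Fin d ⊕ Fin d) F) : Matrix (Fin d ⊕ Fin d) (Fin d ⊕ Fin d) F) = φ b := by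
    intro a
    obtain ⟨b, hb⟩ := (hKφ _).mp ((hy (φ a)).mp ((hKφ _).mpr ⟨a, rfl⟩))
    exact ⟨b, hb.symm⟩
  choose α hα using hα
  have hyy : (y : Matrix (Fin d ⊕ Fin d) (Fin d ⊕ Fin d) F) * ((y⁻¹ : GL (Fin d ⊕ Fin d) F) : Matrix (Fin d ⊕ Fin d) (Fin d ⊕ Fin d) F) = 1 := Units.mul_inv y
  have hyy' : ((y⁻¹ : GL (Fin d ⊕ Fin d) F) : Matrix (Fin d ⊕ Fin d) (Fin d ⊕ Fin d) F) * (y : Matrix (Fin d ⊕ Fin d) (Fin d ⊕ Fin d) F) = 1 := Units.inv_mul y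
  let αA : L →ₐ[F] L :=
    { toFun := α
      map_one' := by
        apply hφ
        rw [← hα, map_one, Matrix.mul_one, hyy]
      map_mul' := by
        intro a b
        apply hφ
        rw [← hα, map_mul, map_mul, ← hα, ← hα]
        calc (y : Matrix (Fin d ⊕ Fin d) (Fin d ⊕ Fin d) F) * (φ a * φ b) * ((y⁻¹ : GL (Fin d ⊕ Fin d) F) : Matrix (Fin d ⊕ Fin d) (Fin d ⊕ Fin d) F)
            = (y : Matrix (Fin d ⊕ Fin d) (Fin d ⊕ Fin d) F) * φ a * 1 * φ b * ((y⁻¹ : GL (Fin d ⊕ Fin d) F) : Matrix (Fin d ⊕ Fin d) (Fin d ⊕ Fin d) F) := by simp only [Matrix.mul_one, Matrix.mul_assoc]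
          _ = _ := by rw [← hyy']; simp only [Matrix.mul_assoc]
      map_zero' := by
        apply hφ
        rw [← hα, map_zero, Matrix.mul_zero, Matrix.zero_mul]
      map_add' := by
        intro a b
        apply hφ
        rw [← hα, map_add, map_add, ← hα, ← hα, Matrix.mul_add, Matrix.add_mul]
      commutes' := by
        intro s
        apply hφ
        rw [← hα, AlgHom.commutes, Algebra.algebraMap_eq_smul_one, Matrix.mul_smul,
          Matrix.smul_mul, Matrix.mul_one, hyy] }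
  let αE : L ≃ₐ[F] L := AlgEquiv.ofBijective αA (Algebra.IsAlgebraic.algHom_bijective αA)
  refine ⟨αE, fun a => ?_⟩
  have h1 : φ (αE a) = (y : Matrix (Fin d ⊕ Fin d) (Fin d ⊕ Fin d) F) * φ a * ((y⁻¹ : GL (Fin d ⊕ Fin d) F) : Matrix (Fin d ⊕ Fin d) (Fin d ⊕ Fin d) F) := (hα a).symm
  rw [h1, Matrix.mul_assoc, hyy', Matrix.mul_one]

theorem comm_of_pow (hφ : Function.Injective φ) (hKφ : ∀ k, k ∈ K ↔ ∃ a, φ a = k) {r : ℕ} (hr : r.Prime) (hk : (finrank F L).Prime) (hrk : r ≠ finrank F L)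
    (y : GL (Fin d ⊕ Fin d) F) (hy : y ∈ subalgebraNormalizer K) (hyr : y ^ r = 1) (a : L) :
    (y : Matrix (Fin d ⊕ Fin d) (Fin d ⊕ Fin d) F) * φ a = φ a * y := by
  classical
  obtain ⟨αE, hαE⟩ := exists_alphaE hφ hKφ y hy
  have hpow : ∀ (i : ℕ) (a : L), (y : Matrix (Fin d ⊕ Fin d) (Fin d ⊕ Fin d) F) ^ i * φ a = φ ((αE ^ i) a) * (y : Matrix (Fin d ⊕ Fin d) (Fin d ⊕ Fin d) F) ^ i := by
    intro i
    induction i with
    | zero => intro a; simp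
    | succ i ih =>
      intro a
      rw [pow_succ, Matrix.mul_assoc, hαE, ← Matrix.mul_assoc, ih, Matrix.mul_assoc, ← pow_succ, pow_succ αE]
      rfl
  have hyr' : (y : Matrix (Fin d ⊕ Fin d) (Fin d ⊕ Fin d) F) ^ r = 1 := by
    rw [← Units.val_pow_eq_pow_val, hyr]
    rfl
  have hαr : αE ^ r = 1 := by
    apply AlgEquiv.ext
    intro b
    apply hφ
    have := hpow r b
    rw [hyr', Matrix.one_mul, Matrix.mul_one] at this
    exact this.symm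
  have h1 : orderOf αE ∣ r := orderOf_dvd_of_pow_eq_one hαr
  have h2 : orderOf αE ∣ finrank F L := by
    haveI : Finite L := Module.finite_of_finite F
    have hdvd : orderOf αE ∣ Nat.card (L ≃ₐ[F] L) := orderOf_dvd_natCard αE
    rwa [IsGalois.card_aut_eq_finrank] at hdvd
  have h3 : orderOf αE = 1 := by
    rcases (Nat.dvd_prime hr).mp h1 with h | h
    · exact h
    · rw [h] at h2
      exact absurd ((Nat.prime_dvd_prime_iff_eq hr hk).mp h2) hrk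
  have h4 : αE = 1 := orderOf_eq_one_iff.mp h3
  rw [hαE, h4]
  rfl

omit [Finite F] [Module.Finite F L] in
theorem mem_normalizer_of_comm (hKφ : ∀ k, k ∈ K ↔ ∃ a, φ a = k) (y : GL (Fin d ⊕ Fin d) F)
    (hcomm : ∀ a, (y : Matrix (Fin d ⊕ Fin d) (Fin d ⊕ Fin d) F) * φ a = φ a * y) : y ∈ subalgebraNormalizer K := by
  have hyy : (y : Matrix (Fin d ⊕ Fin d) (Fin d ⊕ Fin d) F) * ((y⁻¹ : GL (Fin d ⊕ Fin d) F) : Matrix (Fin d ⊕ Fin d) (Fin d ⊕ Fin d) F) = 1 := Units.mul_inv y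
  have hyy' : ((y⁻¹ : GL (Fin d ⊕ Fin d) F) : Matrix (Fin d ⊕ Fin d) (Fin d ⊕ Fin d) F) * (y : Matrix (Fin d ⊕ Fin d) (Fin d ⊕ Fin d) F) = 1 := Units.inv_mul y
  have h1 : ∀ a, (y : Matrix (Fin d ⊕ Fin d) (Fin d ⊕ Fin d) F) * φ a * ((y⁻¹ : GL (Fin d ⊕ Fin d) F) : Matrix (Fin d ⊕ Fin d) (Fin d ⊕ Fin d) F) = φ a := by
    intro a
    rw [hcomm, Matrix.mul_assoc, hyy, Matrix.mul_one]
  intro k
  constructor
  · intro hk
    obtain ⟨a, rfl⟩ := (hKφ _).mp hk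
    rw [h1]
    exact hk
  · intro hk
    obtain ⟨b, hb⟩ := (hKφ _).mp hk
    have h3 : k = φ b := by
      have e1 : ((y⁻¹ : GL (Fin d ⊕ Fin d) F) : Matrix (Fin d ⊕ Fin d) (Fin d ⊕ Fin d) F) * ((y : Matrix (Fin d ⊕ Fin d) (Fin d ⊕ Fin d) F) * k * ((y⁻¹ : GL (Fin d ⊕ Fin d) F) : Matrix (Fin d ⊕ Fin d) (Fin d ⊕ Fin d) F)) * (y : Matrix (Fin d ⊕ Fin d) (Fin d ⊕ Fin d) F) = k := by
        calc _ = (((y⁻¹ : GL (Fin d ⊕ Fin d) F) : Matrix (Fin d ⊕ Fin d) (Fin d ⊕ Fin d) F) * (y : Matrix (Fin d ⊕ Fin d) (Fin d ⊕ Fin d) F)) * k * (((y⁻¹ : GL (Fin d ⊕ Fin d) F) : Matrix (Fin d ⊕ Fin d) (Fin d ⊕ Fin d) F) * (y : Matrix (Fin d ⊕ Fin d) (Fin d ⊕ Fin d) F)) := by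
                simp only [Matrix.mul_assoc]
          _ = k := by rw [hyy', Matrix.one_mul, Matrix.mul_one]
      have e2 : ((y⁻¹ : GL (Fin d ⊕ Fin d) F) : Matrix (Fin d ⊕ Fin d) (Fin d ⊕ Fin d) F) * φ b * (y : Matrix (Fin d ⊕ Fin d) (Fin d ⊕ Fin d) F) = φ b := by
        rw [Matrix.mul_assoc, ← hcomm, ← Matrix.mul_assoc, hyy', Matrix.one_mul]
      rw [← e1, ← hb, e2]
    rw [h3]
    exact (hKφ _).mpr ⟨b, rfl⟩

end alpha

section block

variable {F : Type*} [Field F] [Fintype F] {d : ℕ} {L : Type*} [Field L] [Algebra F L] [Finite L]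
  {φ : L →ₐ[F] Matrix (Fin d ⊕ Fin d) (Fin d ⊕ Fin d) F}

/-- The divisibility from an element with one block, centralizing `L`. -/
theorem dvd_of_block {r q : ℕ} [hrf : Fact r.Prime] (hq : Fintype.card F = q) (hr2 : r ≠ 2) (hrF : (r : F) ≠ 0)
    (hKf : ∀ a u v, sympForm d F (φ a *ᵥ u) v = sympForm d F u (φ a *ᵥ v)) (hKalt : ∀ a v, sympForm d F (φ a *ᵥ v) v = 0)
    (y : GL (Fin d ⊕ Fin d) F) (hy : y ∈ spGL d F) (hyr : y ^ r = 1)
    (hcomm : ∀ a, (y : Matrix (Fin d ⊕ Fin d) (Fin d ⊕ Fin d) F) * φ a = φ a * y)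
    (hfix : finrank F (fixS (Matrix.toLin' (y : Matrix (Fin d ⊕ Fin d) (Fin d ⊕ Fin d) F)) ⊤) + blockDim r q = 2 * d) :
    finrank F L ∣ blockDim r q / 2 := by
  classical
  have hr : r.Prime := hrf.out
  have hr0 : r ≠ 0 := hr.ne_zero
  let B := Cfsg.Agent.Lib.SympWitt.sympB d F
  have hBa : ∀ u v, B u v = sympForm d F u v := fun _ _ => rfl
  have halt : ∀ v, B v v = 0 := fun v => sympForm_self v
  have hB : GoodForm B := Or.inl halt
  let Y := Matrix.toLin' (y : Matrix (Fin d ⊕ Fin d) (Fin d ⊕ Fin d) F)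
  have hYa : ∀ v, Y v = (y : Matrix (Fin d ⊕ Fin d) (Fin d ⊕ Fin d) F) *ᵥ v := fun v => Matrix.toLin'_apply _ v
  have hiso : ∀ u v, B (Y u) (Y v) = B u v := by
    intro u v
    rw [hYa, hYa]
    exact hy u v
  have hYr : Y ^ r = 1 := by
    show (Matrix.toLin' (y : Matrix (Fin d ⊕ Fin d) (Fin d ⊕ Fin d) F)) ^ r = 1
    rw [Cfsg.Agent.Lib.SpGU.toLin_pow, ← Units.val_pow_eq_pow_val, hyr, Units.val_one, Matrix.toLin'_one]
    rfl
  let A₀ : L →ₐ[F] Module.End F (Fin d ⊕ Fin d → F) := (Matrix.toLinAlgEquiv' : Matrix (Fin d ⊕ Fin d) (Fin d ⊕ Fin d) F ≃ₐ[F] _).toAlgHom.comp φ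
  have hA₀ : ∀ a v, A₀ a v = φ a *ᵥ v := fun a v => Matrix.toLin'_apply _ v
  have hAY : ∀ a v, A₀ a (Y v) = Y (A₀ a v) := by
    intro a v
    rw [hA₀, hYa, hYa, hA₀, Matrix.mulVec_mulVec, Matrix.mulVec_mulVec, hcomm]
  have hU : NDOn B ⊤ := fun v _ hv => Cfsg.Agent.S5983.symp_nd v fun w => hv w trivial
  have hinvTop : InvOn Y ⊤ := fun _ _ => trivial
  have hndfix : NDOn B (fixS Y ⊤) := nd_fixS hB hiso hr0 hrF hYr hU hinvTop
  set W : Submodule F (Fin d ⊕ Fin d → F) := ⊤ ⊓ perp B (fixS Y ⊤) with hW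
  have hWfin : finrank F W = blockDim r q := by
    have h1 : finrank F (fixS Y ⊤) + finrank F W = finrank F (⊤ : Submodule F (Fin d ⊕ Fin d → F)) := finrank_rel hB (fixS_le (T := Y) ⊤) hndfix
    rw [finrank_top, Cfsg.Agent.S5983.finrank_V] at h1
    have h3 : finrank F (fixS Y ⊤) + blockDim r q = 2 * d := hfix
    omega
  have hWnd : NDOn B W := nd_rel hB (fixS_le (T := Y) ⊤) hndfix hU
  have hWY : InvOn Y W := inv_inf hinvTop (inv_perp hiso hr0 hYr (inv_fixS ⊤))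
  have hWA : ∀ a, ∀ v ∈ W, A₀ a v ∈ W := by
    intro a v hv
    refine ⟨trivial, fun f hf => ?_⟩
    have hf' := mem_fixS.mp hf
    have h1 : B f (A₀ a v) = B (A₀ a f) v := by
      rw [hA₀, hA₀]
      exact (hKf a f v).symm
    rw [h1]
    exact hv.2 _ (mem_fixS.mpr ⟨trivial, by rw [← hAY, hf'.2]⟩)
  let B' : W →ₗ[F] W →ₗ[F] F := B.domRestrict₁₂ W W
  let Y' : W →ₗ[F] W := Y.restrict hWY
  have hY'a : ∀ a : W, ((Y' a : W) : Fin d ⊕ Fin d → F) = Y a := fun a => rfl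
  have hY'p : ∀ (k : ℕ) (u : W), (((Y' ^ k) u : W) : Fin d ⊕ Fin d → F) = (Y ^ k) u := by
    intro k
    induction k with
    | zero => simp
    | succ k ih =>
      intro u
      rw [pow_succ, pow_succ, Module.End.mul_apply, Module.End.mul_apply, ih, hY'a]
  exact K2 (V := W) (B := B') (T := Y') hq hr2 hrF (fun v => halt v.1)
    (fun v hv => Subtype.ext (hWnd v.1 v.2 fun w hw => hv ⟨w, hw⟩))
    (fun a b => hiso a b)
    (by
      apply LinearMap.ext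
      intro u
      apply Subtype.ext
      rw [hY'p, hYr]
      rfl)
    (fun u hu => Subtype.ext (by
      have h1 : Y u = u := congrArg Subtype.val hu
      exact hndfix u.1 (mem_fixS.mpr ⟨trivial, h1⟩) (fun w hw => hB.refl (u.2.2 w hw))))
    hWfin (restrictAlg A₀ W hWA)
    (fun a u v => by
      show B (A₀ a u) v = B u (A₀ a v)
      rw [hA₀, hA₀]
      exact hKf a u v)
    (fun a v => by
      show B (A₀ a v) v = 0
      rw [hA₀]
      exact hKalt a v)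
    (fun a v => Subtype.ext (hAY a v))

end block

section rhoG

variable {F : Type*} [Field F] {L : Type*} [Field L] [Algebra F L] {ι κ : Type} [Fintype ι] [DecidableEq ι] [Fintype κ] [DecidableEq κ]

/-- Matrices over `L` as `F`-linear automorphisms. -/
def lEg (g : GL ι L) : (ι → L) ≃ₗ[F] (ι → L) where
  toFun u := (g : Matrix ι ι L) *ᵥ u
  invFun u := ((g⁻¹ : GL ι L) : Matrix ι ι L) *ᵥ u
  map_add' u v := Matrix.mulVec_add _ _ _
  map_smul' c u := Matrix.mulVec_smul _ _ _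
  left_inv u := by
    show ((g⁻¹ : GL ι L) : Matrix ι ι L) *ᵥ ((g : Matrix ι ι L) *ᵥ u) = u
    rw [Matrix.mulVec_mulVec, ← Units.val_mul, inv_mul_cancel]
    exact Matrix.one_mulVec u
  right_inv u := by
    show (g : Matrix ι ι L) *ᵥ (((g⁻¹ : GL ι L) : Matrix ι ι L) *ᵥ u) = u
    rw [Matrix.mulVec_mulVec, ← Units.val_mul, mul_inv_cancel]
    exact Matrix.one_mulVec u

/-- The function underlying the embedding. -/
noncomputable def rhoGFun (Ψ : (ι → L) ≃ₗ[F] (κ → F)) (g : GL ι L) : GL κ F :=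
  glOfEquiv (Ψ.symm.trans ((lEg g).trans Ψ))

theorem rhoGFun_mulVec (Ψ : (ι → L) ≃ₗ[F] (κ → F)) (g : GL ι L) (x : κ → F) :
    (rhoGFun Ψ g : Matrix κ κ F) *ᵥ x = Ψ ((g : Matrix ι ι L) *ᵥ Ψ.symm x) := by
  rw [rhoGFun, glOfEquiv_mulVec]
  rfl

theorem mat_eq_of_mulVec' {A B : Matrix κ κ F} (h : ∀ u, A *ᵥ u = B *ᵥ u) : A = B := by
  apply Matrix.toLin'.injective
  apply LinearMap.ext
  intro v
  simpa [Matrix.toLin'_apply] using h v

/-- The embedding. -/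
noncomputable def rhoG (Ψ : (ι → L) ≃ₗ[F] (κ → F)) : GL ι L →* GL κ F where
  toFun := rhoGFun Ψ
  map_one' := by
    apply Units.ext
    apply mat_eq_of_mulVec'
    intro x
    rw [rhoGFun_mulVec, Units.val_one, Matrix.one_mulVec, Units.val_one, Matrix.one_mulVec, LinearEquiv.apply_symm_apply]
  map_mul' g h := by
    apply Units.ext
    apply mat_eq_of_mulVec'
    intro x
    rw [rhoGFun_mulVec, Units.val_mul, ← Matrix.mulVec_mulVec, Units.val_mul, ← Matrix.mulVec_mulVec, rhoGFun_mulVec Ψ h, rhoGFun_mulVec Ψ g, LinearEquiv.symm_apply_apply]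

theorem rhoG_mulVec (Ψ : (ι → L) ≃ₗ[F] (κ → F)) (g : GL ι L) (u : ι → L) :
    (rhoG Ψ g : Matrix κ κ F) *ᵥ (Ψ u) = Ψ ((g : Matrix ι ι L) *ᵥ u) := by
  show (rhoGFun Ψ g : Matrix κ κ F) *ᵥ (Ψ u) = _
  rw [rhoGFun_mulVec, LinearEquiv.symm_apply_apply]

theorem rhoG_inj (Ψ : (ι → L) ≃ₗ[F] (κ → F)) : Function.Injective (rhoG Ψ) := by
  intro g h hgh
  apply Units.ext
  apply Matrix.toLin'.injective
  apply LinearMap.ext
  intro u
  rw [Matrix.toLin'_apply, Matrix.toLin'_apply]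
  apply Ψ.injective
  rw [← rhoG_mulVec, ← rhoG_mulVec, hgh]

end rhoG

section sub

variable {F : Type u} [Field F] [Fintype F] {d : ℕ} {L : Type u} [Field L] [Algebra F L]
  [Module L (Fin d ⊕ Fin d → F)] [IsScalarTower F L (Fin d ⊕ Fin d → F)] [Module.Finite F L]
  [Module.Finite L (Fin d ⊕ Fin d → F)]
  {K : Subalgebra F (Matrix (Fin d ⊕ Fin d) (Fin d ⊕ Fin d) F)}
  {φ : L →ₐ[F] Matrix (Fin d ⊕ Fin d) (Fin d ⊕ Fin d) F}

/-- The copy of `Sp` over `L`. -/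
theorem exists_sp_sub (hmem : ∀ k, k ∈ K ↔ ∃ a, φ a = k)
    (hsmul : ∀ (a : L) (v : Fin d ⊕ Fin d → F), a • v = φ a *ᵥ v)
    (hsa : ∀ a u v, sympForm d F (φ a *ᵥ u) v = sympForm d F u (φ a *ᵥ v))
    (halt : ∀ a v, sympForm d F (φ a *ᵥ v) v = 0) :
    ∃ m, d = finrank F L * m ∧ ∃ P : Subgroup (GL (Fin d ⊕ Fin d) F), P ≤ subalgebraNormalizer K ∧ P ≤ spGL d F ∧ Nat.card P = Nat.card (spGL m L) := by
  classical
  obtain ⟨lam, hlamR⟩ := Cfsg.Agent.Lib.ExtB.exists_retr (F := F) (L := L)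
  have hl1 : lam 1 = 1 := by simpa using hlamR 1
  have hlam : lam ≠ 0 := by
    rintro rfl
    simp at hl1
  obtain ⟨h, H, hf⟩ := Cfsg.Agent.Lib.ExtSpE.exists_form (V := Fin d ⊕ Fin d → F) (f := sympForm d F) hlam
    Cfsg.Agent.Lib.SympForm.sympForm_add_left Cfsg.Agent.Lib.SympForm.sympForm_smul_left
    Cfsg.Agent.Lib.SympForm.sympForm_add_right
    (fun a u v => by
      rw [hsmul, hsmul]
      exact hsa a u v)
    (fun a v => by
      rw [hsmul]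
      exact halt a v)
    (fun u hu => Cfsg.Agent.Lib.SympForm.exists_sympForm_ne_zero hu)
  have hnd : ∀ v, (∀ w, h v w = 0) → v = 0 := by
    intro v hv
    by_contra hv0
    obtain ⟨w, hw⟩ := H.nd v hv0
    exact hw (hv w)
  obtain ⟨m, hm⟩ := even_finrank h H.alt hnd
  have hprod : finrank F L * finrank L (Fin d ⊕ Fin d → F) = d + d := by
    rw [Module.finrank_mul_finrank]
    simp
  refine ⟨m, ?_, ?_⟩
  · rw [hm] at hprod
    have : finrank F L * (2 * m) = 2 * (finrank F L * m) := by ring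
    omega
  obtain ⟨E, hE⟩ := Cfsg.Agent.Lib.SympEquiv.exists_symp_equiv h H.alt hnd hm
  let Ψ : (Fin m ⊕ Fin m → L) ≃ₗ[F] (Fin d ⊕ Fin d → F) := E.restrictScalars F
  have hΨ : ∀ u, Ψ u = E u := fun _ => rfl
  let ρ := (rhoG Ψ).comp (spGL m L).subtype
  have hρinj : Function.Injective ρ := (rhoG_inj Ψ).comp Subtype.val_injective
  refine ⟨ρ.range, ?_, ?_, (Nat.card_congr (MonoidHom.ofInjective hρinj).toEquiv).symm⟩
  · rintro _ ⟨g, rfl⟩
    apply mem_normalizer_of_comm hmem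
    intro a
    apply mat_eq_of_mulVec'
    intro x
    obtain ⟨u, rfl⟩ := Ψ.surjective x
    rw [← Matrix.mulVec_mulVec, ← Matrix.mulVec_mulVec, ← hsmul, hΨ, ← map_smul, ← hΨ]
    show (rhoG Ψ g : Matrix _ _ F) *ᵥ Ψ (a • u) = φ a *ᵥ ((rhoG Ψ g : Matrix _ _ F) *ᵥ Ψ u)
    rw [rhoG_mulVec, rhoG_mulVec, ← hsmul, hΨ, hΨ, ← map_smul, Matrix.mulVec_smul]
  · rintro _ ⟨g, rfl⟩
    intro x y
    obtain ⟨u, rfl⟩ := Ψ.surjective x
    obtain ⟨v, rfl⟩ := Ψ.surjective y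
    show sympForm d F ((rhoG Ψ g : Matrix _ _ F) *ᵥ Ψ u) ((rhoG Ψ g : Matrix _ _ F) *ᵥ Ψ v) = _
    rw [rhoG_mulVec, rhoG_mulVec, hf, hf, hΨ, hΨ, hΨ, hΨ, hE, hE]
    have hg : (g : GL (Fin m ⊕ Fin m) L) ∈ spGL m L := g.2
    exact congrArg (lam) (hg u v)

end sub

end Cfsg.Agent.Lib.SpField
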