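import Mathlib
import Cfsg.Agent.Lib.SpField.Model

/-!
# The index of the normalizer of a field of self-adjoint operators
-/

set_option autoImplicit false
set_option linter.unusedSimpArgs false
set_option linter.unusedVariables false
set_option linter.unusedSectionVars false

namespace Cfsg.Agent.Lib.SpField

open Matrix Module Cfsg Cfsg.Geo
open Cfsg.Agent.Lib.SympForm Cfsg.Agent.Lib.IsomBlock

/-- Splitting the product over `J < km` according to divisibility by `k`. -/
theorem prod_split (q k m : ℕ) (hk : 0 < k) :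
    ∏ J ∈ Finset.range (k * m), (q ^ (2 * (J + 1)) - 1) =
      (∏ j ∈ Finset.range m, ((q ^ k) ^ (2 * (j + 1)) - 1)) *
        ∏ J ∈ (Finset.range (k * m)).filter (fun J => ¬ k ∣ J + 1), (q ^ (2 * (J + 1)) - 1) := by
  classical
  rw [← Finset.prod_filter_mul_prod_filter_not (Finset.range (k * m)) (fun J => k ∣ J + 1)]
  congr 1
  symm
  refine Finset.prod_nbij' (fun j => k * (j + 1) - 1) (fun J => (J + 1) / k - 1) ?_ ?_ ?_ ?_ ?_
  · intro j hj
    have hj' : j < m := Finset.mem_range.mp hj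
    have h1 : 0 < k * (j + 1) := Nat.mul_pos hk (Nat.succ_pos j)
    have h2 : k * (j + 1) ≤ k * m := Nat.mul_le_mul_left _ hj'
    rw [Finset.mem_filter, Finset.mem_range]
    refine ⟨by omega, ?_⟩
    rw [show k * (j + 1) - 1 + 1 = k * (j + 1) by omega]
    exact dvd_mul_right _ _
  · intro J hJ
    rw [Finset.mem_filter, Finset.mem_range] at hJ
    obtain ⟨hJ1, c, hc⟩ := hJ
    rw [Finset.mem_range, hc, Nat.mul_div_cancel_left _ hk]
    have h1 : c ≠ 0 := by
      rintro rfl
      simp at hc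
    have h2 : k * c ≤ k * m := by omega
    have h3 := Nat.le_of_mul_le_mul_left h2 hk
    omega
  · intro j hj
    have h1 : 0 < k * (j + 1) := Nat.mul_pos hk (Nat.succ_pos j)
    show _ = _
    rw [show k * (j + 1) - 1 + 1 = k * (j + 1) by omega, Nat.mul_div_cancel_left _ hk]
    simp
  · intro J hJ
    rw [Finset.mem_filter, Finset.mem_range] at hJ
    obtain ⟨hJ1, c, hc⟩ := hJ
    show _ = _
    rw [hc, Nat.mul_div_cancel_left _ hk]
    have h1 : c ≠ 0 := by
      rintro rfl
      simp at hc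
    rw [show c - 1 + 1 = c by omega]
    omega
  · intro j hj
    have h1 : 0 < k * (j + 1) := Nat.mul_pos hk (Nat.succ_pos j)
    show _ = _
    rw [show k * (j + 1) - 1 + 1 = k * (j + 1) by omega, ← pow_mul]
    congr 2
    ring

variable {F : Type*} [Field F] [Fintype F]

/-- The main index computation. -/
theorem not_dvd_index_sp {L : Type*} [Field L] [Algebra F L] [Module.Finite F L] {d m r q : ℕ} [hrf : Fact r.Prime]
    (hq : Fintype.card F = q) (hrF : (r : F) ≠ 0) (hk : 0 < finrank F L) (hd : d = finrank F L * m)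
    {N P : Subgroup (GL (Fin d ⊕ Fin d) F)} (hPN : P ≤ N) (hPS : P ≤ spGL d F) (hPc : Nat.card P = Nat.card (spGL m L))
    (hdvd : finrank F L ∣ blockDim r q / 2) : ¬ r ∣ N.relIndex (spGL d F) := by
  classical
  intro hΩ
  have hr : r.Prime := hrf.out
  set k := finrank F L with hkdef
  have hq1 : 1 ≤ q := by
    rw [← hq]
    exact Fintype.card_pos
  haveI : Finite L := Module.finite_of_finite F
  letI : Fintype L := Fintype.ofFinite L
  have hL : Fintype.card L = q ^ k := by
    rw [Module.card_eq_pow_finrank (K := F) (V := L), hq]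
  have hd1 : N.relIndex (spGL d F) ∣ P.relIndex (spGL d F) := Subgroup.relIndex_dvd_of_le_left _ hPN
  have hR := Cfsg.Agent.Lib.SpGU.relIndex_mul_card' hPS
  have h1 := Cfsg.Agent.Lib.SpOrder.card_Sp (F := F) d
  rw [Cfsg.Agent.Lib.SpBasic.Sp, hq] at h1
  have h2 := Cfsg.Agent.Lib.SpOrder.card_Sp (F := L) m
  rw [Cfsg.Agent.Lib.SpBasic.Sp, hL] at h2
  have hc1 : Nat.card (spGL d F) = _ := Cfsg.Agent.Lib.SpGU.card_spGL''.trans h1
  have hc2 : Nat.card (spGL m L) = _ := Cfsg.Agent.Lib.SpGU.card_spGL''.trans h2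
  rw [hPc, hc1, hc2] at hR
  subst hd
  rw [prod_split q k m hk] at hR
  have hE : k * m ^ 2 ≤ (k * m) ^ 2 := by
    rw [mul_pow, pow_two k]
    have : k * m ^ 2 ≤ k * k * m ^ 2 := by
      rw [Nat.mul_assoc k k]
      exact Nat.le_mul_of_pos_left _ hk
    exact this
  obtain ⟨E, hE⟩ := Nat.exists_eq_add_of_le hE
  have hpos : 0 < Nat.card (spGL m L) := Nat.card_pos
  have hpos' : 0 < (q ^ k) ^ (m ^ 2) * ∏ i ∈ Finset.range m, ((q ^ k) ^ (2 * (i + 1)) - 1) := by
    rw [← hc2]
    exact hpos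
  have hRR : P.relIndex (spGL (k * m) F) = q ^ E * ∏ J ∈ (Finset.range (k * m)).filter (fun J => ¬ k ∣ J + 1), (q ^ (2 * (J + 1)) - 1) := by
    apply Nat.eq_of_mul_eq_mul_right hpos'
    rw [hR, hE, pow_add, ← pow_mul]
    ring
  have hfin : r ∣ q ^ E * ∏ J ∈ (Finset.range (k * m)).filter (fun J => ¬ k ∣ J + 1), (q ^ (2 * (J + 1)) - 1) := by
    rw [← hRR]
    exact hΩ.trans hd1
  rcases (Nat.Prime.dvd_mul hr).1 hfin with h4 | h4
  · exact not_dvd_card hq hrF (hr.dvd_of_dvd_pow h4)
  · obtain ⟨J, hJ, hJ2⟩ := (Prime.dvd_finsetProd_iff hr.prime _).1 h4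
    rw [Finset.mem_filter] at hJ
    apply hJ.2
    refine hdvd.trans ?_
    have hq2 : 1 ≤ q ^ (2 * (J + 1)) := Nat.one_le_pow _ _ hq1
    have h5 : (q : ZMod r) ^ (2 * (J + 1)) = 1 := by
      have h6 := (ZMod.natCast_eq_zero_iff _ _).mpr hJ2
      rw [Nat.cast_sub hq2] at h6
      push_cast at h6
      exact sub_eq_zero.mp h6
    have h6 : orderOf (q : ZMod r) ∣ 2 * (J + 1) := orderOf_dvd_of_pow_eq_one h5
    unfold blockDim
    split_ifs with hev
    · obtain ⟨e, he⟩ := hev
      rw [he] at h6 ⊢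
      rw [show e + e = 2 * e by ring] at h6 ⊢
      rw [Nat.mul_div_cancel_left _ (by norm_num)]
      exact Nat.dvd_of_mul_dvd_mul_left (by norm_num) h6
    · rw [Nat.mul_div_cancel_left _ (by norm_num)]
      exact Nat.Coprime.dvd_of_dvd_mul_left (by
        rw [Nat.coprime_two_right]
        exact Nat.not_even_iff_odd.mp hev) h6

end Cfsg.Agent.Lib.SpField
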