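import Mathlib
import Cfsg.Agent.Lib.SpField.Basic
import Cfsg.Agent.Lib.SqScalar

/-!
# `Sp_4(q)`, `q` odd: elements with scalar square have conjugates normalizing a field of self-adjoint operators of degree two
-/

set_option autoImplicit false
set_option linter.unusedSimpArgs false
set_option linter.unusedVariables false
set_option linter.unusedSectionVars false

namespace Cfsg.Agent.Lib.SpField

open Matrix Module Cfsg Cfsg.Geo
open Cfsg.Agent.Lib.SympForm Cfsg.Agent.Lib.FieldSub Cfsg.Agent.Lib.SpInvol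
open Cfsg.Agent.Lib.SpGU Cfsg.Agent.Lib.MatConj

variable {F : Type*} [Field F]
variable {K : Subalgebra F (Matrix (Fin 2 ⊕ Fin 2) (Fin 2 ⊕ Fin 2) F)}

local notation "Mt" => Matrix (Fin 2 ⊕ Fin 2) (Fin 2 ⊕ Fin 2) F
local notation "Vt" => (Fin 2 ⊕ Fin 2 → F)
local notation "l0" => (Sum.inl (0 : Fin 2) : Fin 2 ⊕ Fin 2)
local notation "l1" => (Sum.inl (1 : Fin 2) : Fin 2 ⊕ Fin 2)
local notation "r0" => (Sum.inr (0 : Fin 2) : Fin 2 ⊕ Fin 2)
local notation "r1" => (Sum.inr (1 : Fin 2) : Fin 2 ⊕ Fin 2)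

/-- A generator of square `s`. -/
theorem exists_gen_sq [Fintype F] (hK : IsFieldSubalgebra 2 K) (h2 : (2 : F) ≠ 0) {s : F} (hs : ¬ IsSquare s) :
    ∃ T ∈ K, T * T = s • (1 : Mt) ∧ (∀ k ∈ K, ∃ α β : F, k = α • (1 : Mt) + β • T) ∧ ∀ z : F, T ≠ z • (1 : Mt) := by
  classical
  obtain ⟨ω, hω, hωns, hωg⟩ := exists_gen hK
  obtain ⟨a, b, hab⟩ := hωg (ω * ω) (K.mul_mem hω hω)
  set T₁ := ω - (b / 2) • (1 : Mt) with hT₁
  have hT₁mem : T₁ ∈ K := K.sub_mem hω (scalar_mem _)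
  have hns₁ : ∀ z : F, T₁ ≠ z • (1 : Mt) := by
    intro z hz
    apply hωns (z + b / 2)
    rw [add_smul, ← hz, hT₁]
    abel
  set α := a + b / 2 * (b / 2) with hαdef
  have hαβ : T₁ * T₁ = α • (1 : Mt) := by
    have h3 : T₁ * T₁ = ω * ω - b • ω + (b / 2 * (b / 2)) • (1 : Mt) := by
      simp only [hT₁, sub_mul, mul_sub, Matrix.mul_smul, Matrix.smul_mul, Matrix.mul_one, Matrix.one_mul, smul_smul]
      have h4 : b • ω = (b / 2) • ω + (b / 2) • ω := by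
        rw [← add_smul]
        congr 1
        field_simp
        ring
      rw [h4]
      abel
    rw [h3, hab, hαdef, add_smul]
    abel
  have hα : ¬ IsSquare α := by
    rintro ⟨c, hc⟩
    have h1 : (T₁ - c • (1 : Mt)) * (T₁ + c • 1) = 0 := by
      have h3 : (T₁ - c • (1 : Mt)) * (T₁ + c • 1) = T₁ * T₁ - (c * c) • 1 := by
        simp only [sub_mul, mul_add, Matrix.mul_smul, Matrix.smul_mul, Matrix.mul_one, Matrix.one_mul, smul_add, smul_smul]
        abel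
      rw [h3, hαβ, hc, sub_self]
    have h3 := K_no_zero hK (K.sub_mem hT₁mem (scalar_mem c)) (sub_ne_zero.mpr (hns₁ c)) h1
    apply hns₁ (-c)
    rw [neg_smul]
    exact eq_neg_of_add_eq_zero_left h3
  have hα0 : α ≠ 0 := by
    rintro h
    exact hα ⟨0, by rw [h]; ring⟩
  have hs0 : s ≠ 0 := by
    rintro rfl
    exact hs ⟨0, by ring⟩
  have hsq : IsSquare (s * α) := by
    have hodd : ringChar F ≠ 2 := by
      intro h
      apply h2
      have := ringChar.Nat.cast_ringChar (R := F)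
      rw [h] at this
      simpa using this
    have h1 := (quadraticChar_neg_one_iff_not_isSquare (F := F)).mpr hs
    have h3 := (quadraticChar_neg_one_iff_not_isSquare (F := F)).mpr hα
    have h4 : quadraticChar F (s * α) = 1 := by
      rw [map_mul, h1, h3]
      norm_num
    exact (quadraticChar_one_iff_isSquare (mul_ne_zero hs0 hα0)).mp h4
  obtain ⟨c, hc⟩ := hsq
  have hc0 : c ≠ 0 := by
    rintro rfl
    rw [mul_zero] at hc
    exact (mul_ne_zero hs0 hα0) hc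
  set t := c / α with ht
  have ht0 : t ≠ 0 := div_ne_zero hc0 hα0
  have ht2 : t * t * α = s := by
    rw [ht]
    field_simp
    linear_combination -hc
  refine ⟨t • T₁, K.smul_mem hT₁mem t, ?_, ?_, ?_⟩
  · rw [Matrix.smul_mul, Matrix.mul_smul, hαβ, smul_smul, smul_smul, ht2]
  · intro l hl
    obtain ⟨α', β', h⟩ := hωg l hl
    refine ⟨α' + β' * (b / 2), β' * t⁻¹, ?_⟩
    rw [h, smul_smul, mul_assoc, inv_mul_cancel₀ ht0, mul_one, hT₁, smul_sub, smul_smul, add_smul]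
    abel
  · intro z hz
    apply hns₁ (t⁻¹ * z)
    rw [← smul_smul, ← hz, smul_smul, inv_mul_cancel₀ ht0, one_smul]

/-- The coordinates of the generator. -/
def Tst (s : F) (u : Vt) : Vt := Sum.elim ![s * u l1, u l0] ![u r1, s * u r0]

@[simp] theorem Tst_l0 (s : F) (u : Vt) : Tst s u l0 = s * u l1 := rfl
@[simp] theorem Tst_l1 (s : F) (u : Vt) : Tst s u l1 = u l0 := rfl
@[simp] theorem Tst_r0 (s : F) (u : Vt) : Tst s u r0 = u r1 := rfl
@[simp] theorem Tst_r1 (s : F) (u : Vt) : Tst s u r1 = s * u r0 := rfl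

/-- The normal form for the generator. -/
theorem exists_std_two (s : F) (hs : ¬ IsSquare s) {T : Mt} (hT : T * T = s • (1 : Mt))
    (hsa : ∀ u v, sympForm 2 F (T *ᵥ u) v = sympForm 2 F u (T *ᵥ v)) (halt : ∀ v, sympForm 2 F (T *ᵥ v) v = 0) :
    ∃ E : Vt ≃ₗ[F] Vt, (∀ u v, sympForm 2 F (E u) (E v) = sympForm 2 F u v) ∧ ∀ u, T *ᵥ (E u) = E (Tst s u) := by
  classical
  have hs0 : s ≠ 0 := by
    rintro rfl
    exact hs ⟨0, by ring⟩
  have hTT : ∀ v : Vt, T *ᵥ (T *ᵥ v) = s • v := by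
    intro v
    rw [Matrix.mulVec_mulVec, hT, Matrix.smul_mulVec, Matrix.one_mulVec]
  let e₀ : Vt := Pi.single l0 1
  have he₀ : e₀ ≠ 0 := by
    intro h
    have := congrFun h l0
    simp [e₀] at this
  obtain ⟨h₀, hh₀⟩ := exists_sympForm_ne_zero he₀
  set a' := sympForm 2 F h₀ e₀ with ha'
  have ha'0 : a' ≠ 0 := by
    intro h
    apply hh₀
    rw [sympForm_antisymm, ← ha', h, neg_zero]
  set b' := sympForm 2 F h₀ (T *ᵥ e₀) with hb'
  set D := s * a' * a' - b' * b' with hD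
  have hD0 : D ≠ 0 := by
    intro h
    apply hs
    refine ⟨b' / a', ?_⟩
    field_simp
    linear_combination h
  let g₁ : Vt := (s * a' / D) • h₀ + (- b' / D) • (T *ᵥ h₀)
  have hg₁e : sympForm 2 F g₁ e₀ = 1 := by
    simp only [g₁, sympForm_add_left, sympForm_smul_left, hsa, ← ha', ← hb']
    field_simp
    linear_combination -hD
  have hg₁Te : sympForm 2 F g₁ (T *ᵥ e₀) = 0 := by
    simp only [g₁, sympForm_add_left, sympForm_smul_left, hsa, hTT, sympForm_smul_right, ← ha', ← hb']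
    field_simp
    ring
  let b : Fin 2 ⊕ Fin 2 → Vt := Sum.elim ![e₀, T *ᵥ e₀] ![g₁, s⁻¹ • (T *ᵥ g₁)]
  let L : Vt →ₗ[F] Vt := Fintype.linearCombination F b
  have hLu : ∀ u : Vt, L u = u l0 • e₀ + u l1 • (T *ᵥ e₀) + (u r0 • g₁ + u r1 • (s⁻¹ • (T *ᵥ g₁))) := by
    intro u
    show Fintype.linearCombination F b u = _
    rw [Fintype.linearCombination_apply, Fintype.sum_sum_type, Fin.sum_univ_two, Fin.sum_univ_two]
    rfl
  have hanti : ∀ u v : Vt, sympForm 2 F u v = - sympForm 2 F v u := sympForm_antisymm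
  have g1 : sympForm 2 F e₀ (T *ᵥ e₀) = 0 := by
    rw [← hsa]
    exact halt e₀
  have g2 : sympForm 2 F (T *ᵥ e₀) e₀ = 0 := halt e₀
  have g3 : sympForm 2 F e₀ g₁ = -1 := by rw [hanti, hg₁e]
  have g4 : sympForm 2 F (T *ᵥ e₀) g₁ = 0 := by rw [hanti, hg₁Te, neg_zero]
  have g5 : sympForm 2 F (T *ᵥ g₁) e₀ = 0 := by rw [hsa, hg₁Te]
  have g6 : sympForm 2 F e₀ (T *ᵥ g₁) = 0 := by rw [hanti, g5, neg_zero]
  have g7 : sympForm 2 F (T *ᵥ g₁) (T *ᵥ e₀) = s := by rw [hsa, hTT, sympForm_smul_right, hg₁e, mul_one]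
  have g8 : sympForm 2 F (T *ᵥ e₀) (T *ᵥ g₁) = -s := by rw [hanti, g7]
  have g9 : sympForm 2 F (T *ᵥ g₁) g₁ = 0 := halt g₁
  have g10 : sympForm 2 F g₁ (T *ᵥ g₁) = 0 := by rw [hanti, g9, neg_zero]
  have hLB : ∀ u v, sympForm 2 F (L u) (L v) = sympForm 2 F u v := by
    intro u v
    rw [hLu, hLu]
    simp only [sympForm_add_left, sympForm_add_right, sympForm_smul_left, sympForm_smul_right, sympForm_self, g1, g2, g3, g4, g5, g6, g7, g8, g9, g10, hg₁e, hg₁Te]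
    rw [sympForm_apply, Fin.sum_univ_two]
    field_simp
    ring
  have hinj : Function.Injective L := by
    rw [← LinearMap.ker_eq_bot, LinearMap.ker_eq_bot']
    intro u hu
    apply Cfsg.Agent.Lib.SympWitt.eq_zero_of_forall_sympForm
    intro w
    rw [← hLB, hu, sympForm_zero_left]
  let E : Vt ≃ₗ[F] Vt := LinearEquiv.ofInjectiveEndo L hinj
  have hE : ∀ u, E u = L u := fun u => rfl
  refine ⟨E, fun u v => by rw [hE, hE, hLB], ?_⟩
  intro u
  rw [hE, hE, hLu, hLu]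
  simp only [Matrix.mulVec_add, Matrix.mulVec_smul, hTT, smul_smul, Tst_l0, Tst_l1, Tst_r0, Tst_r1]
  have h1 : u r1 * s⁻¹ * s = u r1 := by
    field_simp
  have h3 : s * u r0 * s⁻¹ = u r0 := by
    field_simp
  rw [h1, h3]
  rw [mul_comm (u l1) s]
  abel

/-- Elements inverting or centralizing `T` up to a scalar normalize `K`. -/
theorem mem_normalizer_of_conj' {T : Mt} (hmem : T ∈ K) (hspan : ∀ k ∈ K, ∃ α β : F, k = α • (1 : Mt) + β • T) (y : GL (Fin 2 ⊕ Fin 2) F) (ε : F) (hε : ε ≠ 0)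
    (hy : (y : Mt) * T = ε • (T * y)) : y ∈ subalgebraNormalizer K := by
  have hyi : (y : Mt) * ((y⁻¹ : GL (Fin 2 ⊕ Fin 2) F) : Mt) = 1 := by
    rw [← Units.val_mul, mul_inv_cancel]; rfl
  have hiy : ((y⁻¹ : GL (Fin 2 ⊕ Fin 2) F) : Mt) * (y : Mt) = 1 := by
    rw [← Units.val_mul, inv_mul_cancel]; rfl
  have h1 : (y : Mt) * T * ((y⁻¹ : GL (Fin 2 ⊕ Fin 2) F) : Mt) = ε • T := by
    rw [hy, Matrix.smul_mul, Matrix.mul_assoc, hyi, Matrix.mul_one]
  have h3 : ((y⁻¹ : GL (Fin 2 ⊕ Fin 2) F) : Mt) * T * y = ε⁻¹ • T := by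
    have h4 : T * y = ε⁻¹ • ((y : Mt) * T) := by
      rw [hy, smul_smul, inv_mul_cancel₀ hε, one_smul]
    rw [Matrix.mul_assoc, h4, Matrix.mul_smul, ← Matrix.mul_assoc, hiy, Matrix.one_mul]
  intro k
  constructor
  · intro hk
    obtain ⟨α, β, rfl⟩ := hspan k hk
    have h4 : (y : Mt) * (α • 1 + β • T) * ((y⁻¹ : GL (Fin 2 ⊕ Fin 2) F) : Mt) = α • 1 + (β * ε) • T := by
      rw [Matrix.mul_add, Matrix.add_mul, Matrix.mul_smul, Matrix.mul_smul, Matrix.smul_mul, Matrix.smul_mul, Matrix.mul_one, hyi, h1, smul_smul]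
    rw [h4]
    exact K.add_mem (scalar_mem α) (K.smul_mem hmem _)
  · intro hk
    obtain ⟨α, β, h⟩ := hspan _ hk
    have h4 : k = α • 1 + (β * ε⁻¹) • T := by
      have h5 : k = ((y⁻¹ : GL (Fin 2 ⊕ Fin 2) F) : Mt) * ((y : Mt) * k * ((y⁻¹ : GL (Fin 2 ⊕ Fin 2) F) : Mt)) * y := by
        simp only [Matrix.mul_assoc, hiy, Matrix.mul_one]
        rw [← Matrix.mul_assoc, hiy, Matrix.one_mul]
      rw [h5, h, Matrix.mul_add, Matrix.add_mul, Matrix.mul_smul, Matrix.mul_smul, Matrix.smul_mul, Matrix.smul_mul, Matrix.mul_one, hiy, h3, smul_smul]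
    rw [h4]
    exact K.add_mem (scalar_mem α) (K.smul_mem hmem _)

/-- The final conjugation. -/
theorem conj_step {s : F} {T : Mt} (hmem : T ∈ K) (hspan : ∀ k ∈ K, ∃ α β : F, k = α • (1 : Mt) + β • T) {g₀ : GL (Fin 2 ⊕ Fin 2) F} (hg₀ : g₀ ∈ spGL 2 F)
    (hg₀T : ∀ u, T *ᵥ ((g₀ : Mt) *ᵥ u) = (g₀ : Mt) *ᵥ (Tst s u))
    {x y h : GL (Fin 2 ⊕ Fin 2) F} (hh : h ∈ spGL 2 F) (hc : h⁻¹ * x * h = y) {ε : F} (hε : ε ≠ 0)
    (hy : ∀ u, (y : Mt) *ᵥ (Tst s u) = ε • Tst s ((y : Mt) *ᵥ u)) :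
    ∃ g ∈ spGL 2 F, g⁻¹ * x * g ∈ subalgebraNormalizer K := by
  refine ⟨h * g₀⁻¹, (spGL 2 F).mul_mem hh ((spGL 2 F).inv_mem hg₀), ?_⟩
  have h1 : (h * g₀⁻¹)⁻¹ * x * (h * g₀⁻¹) = g₀ * y * g₀⁻¹ := by
    rw [← hc]
    group
  rw [h1]
  apply mem_normalizer_of_conj' hmem hspan _ ε hε
  apply mat_eq_of_mulVec
  intro v
  obtain ⟨u, rfl⟩ : ∃ u, v = (g₀ : Mt) *ᵥ u := ⟨((g₀⁻¹ : GL (Fin 2 ⊕ Fin 2) F) : Mt) *ᵥ v, (gl_mulVec_inv g₀ v).symm⟩
  have h3 : ∀ w, ((g₀ * y * g₀⁻¹ : GL (Fin 2 ⊕ Fin 2) F) : Mt) *ᵥ ((g₀ : Mt) *ᵥ w) =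
      (g₀ : Mt) *ᵥ ((y : Mt) *ᵥ w) := by
    intro w
    rw [Units.val_mul, Units.val_mul, ← Matrix.mulVec_mulVec, ← Matrix.mulVec_mulVec, gl_inv_mulVec]
  rw [Matrix.smul_mulVec, ← Matrix.mulVec_mulVec, ← Matrix.mulVec_mulVec, hg₀T, h3, hy, Matrix.mulVec_smul, h3, hg₀T]

/-- The model of an element of square `-1`. -/
def ZLin (α β s : F) : Vt →ₗ[F] Vt where
  toFun u := Sum.elim ![α * u l0 + β * s * u l1, α * u l1 + β * u l0] ![-(α * u r0 + β * u r1), -(α * u r1 + β * s * u r0)]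
  map_add' u v := by
    funext c
    rcases c with i | i <;> fin_cases i <;> simp <;> ring
  map_smul' c u := by
    funext e
    rcases e with i | i <;> fin_cases i <;> simp <;> ring

@[simp] theorem ZLin_l0 (α β s : F) (u : Vt) : ZLin α β s u l0 = α * u l0 + β * s * u l1 := rfl
@[simp] theorem ZLin_l1 (α β s : F) (u : Vt) : ZLin α β s u l1 = α * u l1 + β * u l0 := rfl
@[simp] theorem ZLin_r0 (α β s : F) (u : Vt) : ZLin α β s u r0 = -(α * u r0 + β * u r1) := rfl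
@[simp] theorem ZLin_r1 (α β s : F) (u : Vt) : ZLin α β s u r1 = -(α * u r1 + β * s * u r0) := rfl

theorem ext_four {u v : Vt} (h0 : u l0 = v l0) (h1 : u l1 = v l1) (h2 : u r0 = v r0) (h3 : u r1 = v r1) : u = v := by
  funext c
  rcases c with i | i <;> fin_cases i <;> assumption

theorem ZLin_sq {α β s : F} (hn : α * α + β * β * s = -1) (h0 : α * β = 0) (u : Vt) : ZLin α β s (ZLin α β s u) = - u := by
  apply ext_four <;> simp only [ZLin_l0, ZLin_l1, ZLin_r0, ZLin_r1, Pi.neg_apply]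
  · linear_combination u l0 * hn + (2 * s * u l1) * h0
  · linear_combination u l1 * hn + (2 * u l0) * h0
  · linear_combination u r0 * hn + (2 * u r1) * h0
  · linear_combination u r1 * hn + (2 * s * u r0) * h0

/-- As a linear equivalence. -/
def ZEquiv {α β s : F} (hn : α * α + β * β * s = -1) (h0 : α * β = 0) : Vt ≃ₗ[F] Vt :=
  LinearEquiv.ofLinearMap (ZLin α β s) (- ZLin α β s)
    (by
      apply LinearMap.ext
      intro u
      simp [ZLin_sq hn h0])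
    (by
      apply LinearMap.ext
      intro u
      simp [ZLin_sq hn h0])

theorem ZEquiv_apply {α β s : F} (hn : α * α + β * β * s = -1) (h0 : α * β = 0) (u : Vt) : ZEquiv hn h0 u = ZLin α β s u := rfl

theorem ZLin_form {α β s : F} (hn : α * α + β * β * s = -1) (h0 : α * β = 0) (u v : Vt) :
    sympForm 2 F (ZLin α β s u) (ZLin α β s v) = sympForm 2 F u v := by
  rw [sympForm_apply, sympForm_apply, Fin.sum_univ_two, Fin.sum_univ_two]
  simp only [ZLin_l0, ZLin_l1, ZLin_r0, ZLin_r1]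
  linear_combination (u l0 * v r0 + u l1 * v r1 - u r0 * v l0 - u r1 * v l1) * hn
    + (-2 * s * u r0 * v l1 - 2 * u r1 * v l0 + 2 * u l0 * v r1 + 2 * s * u l1 * v r0) * h0

theorem ZLin_comm (α β s : F) (u : Vt) : ZLin α β s (Tst s u) = (1 : F) • Tst s (ZLin α β s u) := by
  rw [one_smul]
  apply ext_four <;> simp only [ZLin_l0, ZLin_l1, ZLin_r0, ZLin_r1, Tst_l0, Tst_l1, Tst_r0, Tst_r1] <;> ring

theorem invGL_anti (s : F) {t : ℕ} (ht : t ≤ 2) : ∃ ε : F, ε ≠ 0 ∧ ∀ u : Vt, ((invGL F 2 t : GL (Fin 2 ⊕ Fin 2) F) : Mt) *ᵥ (Tst s u) = ε • Tst s (((invGL F 2 t : GL (Fin 2 ⊕ Fin 2) F) : Mt) *ᵥ u) := by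
  interval_cases t
  · refine ⟨1, one_ne_zero, fun u => ?_⟩
    rw [one_smul]
    apply ext_four <;> simp only [invGL_mulVec, Tst_l0, Tst_l1, Tst_r0, Tst_r1] <;> simp [invDiag]
  · refine ⟨-1, neg_ne_zero.mpr one_ne_zero, fun u => ?_⟩
    apply ext_four <;> simp only [invGL_mulVec, Pi.smul_apply, Tst_l0, Tst_l1, Tst_r0, Tst_r1] <;> simp [invDiag]
  · refine ⟨1, one_ne_zero, fun u => ?_⟩
    rw [one_smul]
    apply ext_four <;> simp only [invGL_mulVec, Tst_l0, Tst_l1, Tst_r0, Tst_r1] <;> simp [invDiag]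

/-- Every element of `Sp_4(q)` with scalar square has a conjugate normalizing `K`. -/
theorem backward [Fintype F] (hK : IsFieldSubalgebra 2 K) (hKf : IsSelfAdjointFor (sympForm 2 F) K)
    (hKalt : ∀ a ∈ K, ∀ v : Vt, sympForm 2 F (a *ᵥ v) v = 0) (h2 : (2 : F) ≠ 0)
    (x : GL (Fin 2 ⊕ Fin 2) F) (hx : x ∈ spGL 2 F) (z : F)
    (hz : ((x ^ 2 : GL (Fin 2 ⊕ Fin 2) F) : Mt) = z • (1 : Mt)) :
    ∃ g ∈ spGL 2 F, g⁻¹ * x * g ∈ subalgebraNormalizer K := by
  classical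
  have hodd : ringChar F ≠ 2 := by
    intro h
    apply h2
    have := ringChar.Nat.cast_ringChar (R := F)
    rw [h] at this
    simpa using this
  obtain ⟨s, hs⟩ := FiniteField.exists_nonsquare hodd
  have hs0 : s ≠ 0 := by
    rintro rfl
    exact hs ⟨0, by ring⟩
  obtain ⟨T, hTK, hTT, hspan, hns⟩ := exists_gen_sq hK h2 hs
  obtain ⟨E, hE1, hE2⟩ := exists_std_two s hs hTT (hKf T hTK) (hKalt T hTK)
  let g₀ : GL (Fin 2 ⊕ Fin 2) F := glOfEquiv E
  have hg₀ : g₀ ∈ spGL 2 F := glOfEquiv_mem E hE1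
  have hg₀T : ∀ u, T *ᵥ ((g₀ : Mt) *ᵥ u) = (g₀ : Mt) *ᵥ (Tst s u) := by
    intro u
    rw [glOfEquiv_mulVec, glOfEquiv_mulVec]
    exact hE2 u
  have hxx : (x : Mt) * x = z • 1 := by
    rw [← hz, pow_two, Units.val_mul]
  rcases sq_eq_one_or (by norm_num) x hx z hxx with rfl | rfl
  · rw [one_smul] at hxx
    obtain ⟨t, ht⟩ := rank_even h2 x hx hxx
    have htd : t ≤ 2 := by
      have h1 := Matrix.rank_le_card_width ((x : Mt) - 1)
      rw [ht] at h1
      simp only [Fintype.card_sum, Fintype.card_fin] at h1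
      omega
    obtain ⟨h, hh, hc⟩ := sp_invol_conj h2 x (invGL F 2 t) hx (invGL_mem t) hxx (invDiag_mul_self t) (by rw [ht, invGL_rank h2 htd])
    obtain ⟨ε, hε, hy⟩ := invGL_anti s htd
    exact conj_step hTK hspan hg₀ hg₀T hh hc hε hy
  · obtain ⟨α, β, hn, h0⟩ : ∃ α β : F, α * α + β * β * s = -1 ∧ α * β = 0 := by
      by_cases hm : IsSquare (-1 : F)
      · obtain ⟨c, hc⟩ := hm
        exact ⟨c, 0, by rw [hc]; ring, by ring⟩
      · have hsq : IsSquare (s * (-1)) := by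
          have h1 := (quadraticChar_neg_one_iff_not_isSquare (F := F)).mpr hs
          have h3 := (quadraticChar_neg_one_iff_not_isSquare (F := F)).mpr hm
          have h4 : quadraticChar F (s * (-1)) = 1 := by
            rw [map_mul, h1, h3]
            norm_num
          exact (quadraticChar_one_iff_isSquare (mul_ne_zero hs0 (neg_ne_zero.mpr one_ne_zero))).mp h4
        obtain ⟨c, hc⟩ := hsq
        refine ⟨0, c / s, ?_, by ring⟩
        field_simp
        linear_combination -hc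
    let y : GL (Fin 2 ⊕ Fin 2) F := glOfEquiv (ZEquiv hn h0)
    have hyv : ∀ u, (y : Mt) *ᵥ u = ZLin α β s u := fun u => by
      rw [glOfEquiv_mulVec, ZEquiv_apply]
    have hy : y ∈ spGL 2 F := glOfEquiv_mem _ (fun u v => ZLin_form hn h0 u v)
    have hy2 : (y : Mt) * y = (-1 : F) • 1 := by
      apply mat_eq_of_mulVec
      intro u
      rw [← Matrix.mulVec_mulVec, hyv, hyv, ZLin_sq hn h0, Matrix.smul_mulVec, Matrix.one_mulVec, neg_smul, one_smul]
    obtain ⟨h, hh, hc⟩ := sp_J_conj h2 x y hx hy hxx hy2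
    refine conj_step hTK hspan hg₀ hg₀T hh hc (ε := 1) one_ne_zero ?_
    intro u
    rw [hyv, hyv, ZLin_comm]

end Cfsg.Agent.Lib.SpField
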