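import Mathlib
import Cfsg.Agent.Lib.SpField.Index
import Cfsg.Agent.Lib.SpGU.Transv

/-!
# The forward direction: elements of prime order outside all conjugates of the normalizer
-/

set_option autoImplicit false
set_option linter.unusedSimpArgs false
set_option linter.unusedVariables false
set_option linter.unusedSectionVars false

namespace Cfsg.Agent.Lib.SpField

open Matrix Module Cfsg Cfsg.Geo
open Cfsg.Agent.Lib.SympForm Cfsg.Agent.Lib.SpInvol Cfsg.Agent.Lib.SympT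
open Cfsg.Agent.Lib.SpGU Cfsg.Agent.Lib.IsomBlock

universe u

section elts

variable {F : Type*} [Field F] {d : ℕ}

local notation "hfS" => (sympForm_isSymplectic (m := d) (F := F))

/-- Rank and fixed space. -/
theorem range_add_fix (y : Matrix (Fin d ⊕ Fin d) (Fin d ⊕ Fin d) F) :
    finrank F (LinearMap.range (Matrix.toLin' y - LinearMap.id)) + finrank F (fixS (Matrix.toLin' y) ⊤) = 2 * d := by
  have h1 := LinearMap.finrank_range_add_finrank_ker (Matrix.toLin' y - LinearMap.id)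
  have h2 : fixS (Matrix.toLin' y) (⊤ : Submodule F (Fin d ⊕ Fin d → F)) = LinearMap.ker (Matrix.toLin' y - LinearMap.id) := top_inf_eq _
  rw [h2, h1, Cfsg.Agent.S5983.finrank_V]

theorem range_eq_rank (y : Matrix (Fin d ⊕ Fin d) (Fin d ⊕ Fin d) F) :
    finrank F (LinearMap.range (Matrix.toLin' y - LinearMap.id)) = (y - 1).rank := by
  have h1 : Matrix.toLin' y - LinearMap.id = (y - 1).mulVecLin := by
    apply LinearMap.ext
    intro v
    rw [LinearMap.sub_apply, Matrix.toLin'_apply, LinearMap.id_apply, Matrix.mulVecLin_apply, Matrix.sub_mulVec, Matrix.one_mulVec]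
  rw [h1]
  rfl

theorem range_conj (x g : GL (Fin d ⊕ Fin d) F) :
    finrank F (LinearMap.range (Matrix.toLin' ((g⁻¹ * x * g : GL (Fin d ⊕ Fin d) F) : Matrix (Fin d ⊕ Fin d) (Fin d ⊕ Fin d) F) - LinearMap.id)) =
      finrank F (LinearMap.range (Matrix.toLin' (x : Matrix (Fin d ⊕ Fin d) (Fin d ⊕ Fin d) F) - LinearMap.id)) := by
  have h1 := range_add_fix ((g⁻¹ * x * g : GL (Fin d ⊕ Fin d) F) : Matrix (Fin d ⊕ Fin d) (Fin d ⊕ Fin d) F)
  have h2 := range_add_fix (x : Matrix (Fin d ⊕ Fin d) (Fin d ⊕ Fin d) F)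
  rw [fix_conj_finrank] at h1
  omega

theorem conj_pow_one (x g : GL (Fin d ⊕ Fin d) F) {r : ℕ} (h : x ^ r = 1) : (g⁻¹ * x * g) ^ r = 1 := by
  rw [show g⁻¹ * x * g = g⁻¹ * x * g⁻¹⁻¹ by rw [inv_inv], conj_pow, h]
  simp

/-- A nonzero vector. -/
theorem transv_case (hd : 2 ≤ d) {k : ℕ} (hk : 2 ≤ k) {K : Subalgebra F (Matrix (Fin d ⊕ Fin d) (Fin d ⊕ Fin d) F)} (hK : IsFieldSubalgebra k K)
    {r : ℕ} (hrF : (r : F) = 0)
    (hx : ∀ x ∈ Cfsg.spGL d F, (∃ z : F, ((x ^ r : GL (Fin d ⊕ Fin d) F) : Matrix (Fin d ⊕ Fin d) (Fin d ⊕ Fin d) F) = z • (1 : Matrix (Fin d ⊕ Fin d) (Fin d ⊕ Fin d) F)) →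
      (∀ z : F, (x : Matrix (Fin d ⊕ Fin d) (Fin d ⊕ Fin d) F) ≠ z • (1 : Matrix (Fin d ⊕ Fin d) (Fin d ⊕ Fin d) F)) →
      ∃ g ∈ Cfsg.spGL d F, g⁻¹ * x * g ∈ Cfsg.Geo.subalgebraNormalizer K) : False := by
  classical
  let i : Fin d := ⟨0, by omega⟩
  let w : Fin d ⊕ Fin d → F := Pi.single (Sum.inl i) 1
  have hw : w ≠ 0 := by
    intro h
    have := congrFun h (Sum.inl i)
    simp [w] at this
  have hpow : tvS hfS w 1 ^ r = 1 := by
    rw [tvS_pow', hrF, zero_mul, tvS_zero]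
  obtain ⟨g, hg, hN⟩ := hx (tvS hfS w 1) (tvS_pres hfS w 1) ⟨1, by rw [hpow, one_smul]; rfl⟩ (by
    intro z hz
    have h1 := tvS_apply hfS w 1 w
    rw [hz, Matrix.smul_mulVec, Matrix.one_mulVec, sympForm_self, mul_zero, zero_smul, add_zero] at h1
    have hz1 : z = 1 := by
      have h3 := congrFun h1 (Sum.inl i)
      simpa [w] using h3
    obtain ⟨u, hu⟩ := exists_sympForm_ne_zero hw
    have h3 := tvS_apply hfS w 1 u
    rw [hz, hz1, one_smul, Matrix.one_mulVec, one_mul] at h3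
    have h4 : sympForm d F u w • w = 0 := by
      have h5 := congrArg (fun t => t - u) h3
      simpa using h5.symm
    rcases smul_eq_zero.mp h4 with h5 | h5
    · apply hu
      rw [sympForm_antisymm, h5, neg_zero]
    · exact hw h5)
  have hg' : g⁻¹ ∈ preserving (glToMat (Fin d ⊕ Fin d) F) (sympForm d F) := (spGL d F).inv_mem hg
  have hy : g⁻¹ * tvS hfS w 1 * g = tvS hfS (((g⁻¹ : GL (Fin d ⊕ Fin d) F) : Matrix (Fin d ⊕ Fin d) (Fin d ⊕ Fin d) F) *ᵥ w) 1 := by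
    have h1 := tvS_conj hfS hg' w 1
    rwa [inv_inv] at h1
  rw [hy] at hN
  refine transv_not_normalizer hK hk hd ?_ hN
  intro h
  apply hw
  have h1 := gl_mulVec_inv g w
  rw [h, Matrix.mulVec_zero] at h1
  exact h1.symm

/-- The involution case for `d ≥ 3`. -/
theorem invol_case (hd : 3 ≤ d) {k : ℕ} (hk : 2 ≤ k) {K : Subalgebra F (Matrix (Fin d ⊕ Fin d) (Fin d ⊕ Fin d) F)} (hK : IsFieldSubalgebra k K)
    (hKf : IsSelfAdjointFor (sympForm d F) K) (hKalt : ∀ a ∈ K, ∀ v : Fin d ⊕ Fin d → F, sympForm d F (a *ᵥ v) v = 0)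
    (h2 : (2 : F) ≠ 0)
    (hx : ∀ x ∈ Cfsg.spGL d F, (∃ z : F, ((x ^ 2 : GL (Fin d ⊕ Fin d) F) : Matrix (Fin d ⊕ Fin d) (Fin d ⊕ Fin d) F) = z • (1 : Matrix (Fin d ⊕ Fin d) (Fin d ⊕ Fin d) F)) →
      (∀ z : F, (x : Matrix (Fin d ⊕ Fin d) (Fin d ⊕ Fin d) F) ≠ z • (1 : Matrix (Fin d ⊕ Fin d) (Fin d ⊕ Fin d) F)) →
      ∃ g ∈ Cfsg.spGL d F, g⁻¹ * x * g ∈ Cfsg.Geo.subalgebraNormalizer K) : False := by
  classical
  have hxsq : invGL F d 1 ^ 2 = 1 := by
    apply Units.ext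
    rw [Units.val_pow_eq_pow_val, pow_two, Units.val_one]
    exact invDiag_mul_self 1
  obtain ⟨g, hg, hN⟩ := hx (invGL F d 1) (invGL_mem 1) ⟨1, by rw [hxsq, one_smul]; rfl⟩ (by
    intro z hz
    have h1 := congrFun (congrFun hz (Sum.inl ⟨0, by omega⟩)) (Sum.inl ⟨0, by omega⟩)
    have h3 := congrFun (congrFun hz (Sum.inl ⟨1, by omega⟩)) (Sum.inl ⟨1, by omega⟩)
    simp [invGL, invDiag] at h1 h3
    apply h2
    linear_combination h3 - h1)
  have hrk : finrank F (LinearMap.range (Matrix.toLin' ((g⁻¹ * invGL F d 1 * g : GL (Fin d ⊕ Fin d) F) : Matrix (Fin d ⊕ Fin d) (Fin d ⊕ Fin d) F) - LinearMap.id)) = 2 := by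
    rw [range_conj, range_eq_rank, invGL_rank h2 (by omega)]
  refine invol_not_comm hK hk h2 hKf hKalt _ ((spGL d F).mul_mem ((spGL d F).mul_mem ((spGL d F).inv_mem hg) (invGL_mem 1)) hg) ?_ hrk
    (fun a ha => comm_of_rank_lt hK _ hN (by rw [hrk]; omega) ha)
  have h3 := conj_pow_one (invGL F d 1) g hxsq
  have h4 := congrArg (fun y : GL (Fin d ⊕ Fin d) F => (y : Matrix (Fin d ⊕ Fin d) (Fin d ⊕ Fin d) F)) h3
  simpa only [pow_two, Units.val_mul, Units.val_one] using h4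

/-- An element with exactly one block. -/
theorem exists_one_block [Fintype F] {r q : ℕ} [hrf : Fact r.Prime] (hq : Fintype.card F = q) (hr2 : r ≠ 2) (hrF : (r : F) ≠ 0)
    (hle : blockDim r q ≤ 2 * d) :
    ∃ x ∈ spGL d F, x ^ r = 1 ∧
      finrank F (fixS (Matrix.toLin' (x : Matrix (Fin d ⊕ Fin d) (Fin d ⊕ Fin d) F)) ⊤) + blockDim r q = 2 * d ∧
      ∀ z : F, (x : Matrix (Fin d ⊕ Fin d) (Fin d ⊕ Fin d) F) ≠ z • (1 : Matrix (Fin d ⊕ Fin d) (Fin d ⊕ Fin d) F) := by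
  classical
  have hr : r.Prime := hrf.out
  have hrodd : Odd r := hr.odd_of_ne_two hr2
  have hcpos := blockDim_pos hq hrF
  have hd : 1 ≤ d := by omega
  obtain ⟨c', hc'⟩ := blockDim_even r q
  have hc2 : blockDim r q = 2 * c' := by omega
  obtain ⟨T₀, hT₀1, hT₀2, hT₀3⟩ := Cfsg.Agent.S5961.exists_block_elt (F := F) hq hr2 hrF hc2
  obtain ⟨m, hm⟩ := Nat.exists_eq_add_of_le (show c' ≤ d by omega)
  obtain ⟨x', hxr, hxfix⟩ := Cfsg.Agent.S5961.exists_x_blocks (F := F) (d := d) (s := 1) (c' := c') (m := m) (by omega) T₀ hT₀1 hT₀2 hT₀3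
  have hxGr : spToGL x' ^ r = 1 := by
    apply Units.ext
    rw [Units.val_pow_eq_pow_val, Units.val_one]
    have h1 := congrArg Subtype.val hxr
    rw [SubmonoidClass.coe_pow] at h1
    exact h1
  have hxfix' : finrank F (fixS (Matrix.toLin' ((spToGL x' : GL (Fin d ⊕ Fin d) F) : Matrix (Fin d ⊕ Fin d) (Fin d ⊕ Fin d) F)) ⊤) + blockDim r q = 2 * d := by
    rw [hc2]
    have h1 : finrank F (fixS (Matrix.toLin' ((spToGL x' : GL (Fin d ⊕ Fin d) F) : Matrix (Fin d ⊕ Fin d) (Fin d ⊕ Fin d) F)) ⊤) + 1 * (2 * c') = 2 * d := hxfix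
    omega
  refine ⟨spToGL x', spToGL_mem x', hxGr, hxfix', ?_⟩
  intro z hz
  have hz2 : z * z = 1 := Cfsg.Agent.S5961.scalar_sq (by omega) x' z hz
  have hzr : z ^ r = 1 := by
    have h1 := congrArg (fun g : GL (Fin d ⊕ Fin d) F => (g : Matrix (Fin d ⊕ Fin d) (Fin d ⊕ Fin d) F)) hxGr
    simp only [Units.val_pow_eq_pow_val, Units.val_one] at h1
    have hz' : ((spToGL x' : GL (Fin d ⊕ Fin d) F) : Matrix (Fin d ⊕ Fin d) (Fin d ⊕ Fin d) F) = z • 1 := hz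
    rw [hz', _root_.smul_pow, one_pow] at h1
    have h3 := congrFun (congrFun h1 (Sum.inl ⟨0, by omega⟩)) (Sum.inl ⟨0, by omega⟩)
    simpa using h3
  have hz1 : z = 1 := by
    obtain ⟨k, hk⟩ := hrodd
    rw [hk, pow_succ, pow_mul, pow_two, hz2, one_pow, one_mul] at hzr
    exact hzr
  have hxone : ((spToGL x' : GL (Fin d ⊕ Fin d) F) : Matrix (Fin d ⊕ Fin d) (Fin d ⊕ Fin d) F) = 1 := by
    have hz' : ((spToGL x' : GL (Fin d ⊕ Fin d) F) : Matrix (Fin d ⊕ Fin d) (Fin d ⊕ Fin d) F) = z • 1 := hz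
    rw [hz', hz1, one_smul]
  rw [hxone, Matrix.toLin'_one] at hxfix'
  have h5 : fixS (LinearMap.id : (Fin d ⊕ Fin d → F) →ₗ[F] (Fin d ⊕ Fin d → F)) ⊤ = ⊤ := by
    apply le_antisymm le_top
    intro v _
    exact mem_fixS.mpr ⟨trivial, rfl⟩
  rw [h5, finrank_top, Cfsg.Agent.S5983.finrank_V] at hxfix'
  omega

end elts

section model

variable {F : Type u} [Field F] [Fintype F] {d : ℕ} {K : Subalgebra F (Matrix (Fin d ⊕ Fin d) (Fin d ⊕ Fin d) F)}

/-- The model of `K` and the subgroup `Sp_{2d/k}(q^k)`. -/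
theorem exists_full_model {k : ℕ} (hk : k.Prime) (hK : IsFieldSubalgebra k K)
    (hKf : IsSelfAdjointFor (sympForm d F) K) (hKalt : ∀ a ∈ K, ∀ v : Fin d ⊕ Fin d → F, sympForm d F (a *ᵥ v) v = 0) :
    ∃ (L : Type u) (_ : Field L) (_ : Algebra F L) (φ : L →ₐ[F] Matrix (Fin d ⊕ Fin d) (Fin d ⊕ Fin d) F) (_ : Module.Finite F L),
      Function.Injective φ ∧ (∀ k, k ∈ K ↔ ∃ a, φ a = k) ∧ finrank F L = k ∧
      ∃ m, d = k * m ∧ ∃ P : Subgroup (GL (Fin d ⊕ Fin d) F), P ≤ subalgebraNormalizer K ∧ P ≤ spGL d F ∧ Nat.card P = Nat.card (spGL m L) := by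
  obtain ⟨L, _, _, φ, hinj, hmem, hfr⟩ := Cfsg.Agent.Lib.FieldModel.exists_model hk.ne_zero hK
  letI modL : Module L (Fin d ⊕ Fin d → F) :=
    { smul := fun e v => (φ e) *ᵥ v
      one_smul := fun v => by change (φ 1) *ᵥ v = v; simp
      mul_smul := fun a b v => by
        change (φ (a * b)) *ᵥ v = (φ a) *ᵥ ((φ b) *ᵥ v)
        simp [Matrix.mulVec_mulVec]
      smul_zero := fun a => Matrix.mulVec_zero _
      smul_add := fun a v w => Matrix.mulVec_add _ _ _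
      add_smul := fun a b v => by
        change (φ (a + b)) *ᵥ v = (φ a) *ᵥ v + (φ b) *ᵥ v
        simp [Matrix.add_mulVec]
      zero_smul := fun v => by
        change (φ 0) *ᵥ v = 0
        simp }
  have hsmul : ∀ (a : L) (v : Fin d ⊕ Fin d → F), a • v = φ a *ᵥ v := fun _ _ => rfl
  haveI tower : IsScalarTower F L (Fin d ⊕ Fin d → F) := ⟨fun c e v => by
    rw [hsmul, hsmul, map_smul, Matrix.smul_mulVec]⟩
  haveI hfinL : Module.Finite F L := Module.finite_of_finrank_pos (by rw [hfr]; exact hk.pos)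
  haveI : Module.Finite L (Fin d ⊕ Fin d → F) :=
    Module.Finite.of_restrictScalars_finite F L (Fin d ⊕ Fin d → F)
  obtain ⟨m, hm, P, hP1, hP2, hP3⟩ := exists_sp_sub (L := L) hmem hsmul
    (fun a u v => hKf (φ a) ((hmem _).mpr ⟨a, rfl⟩) u v)
    (fun a v => hKalt (φ a) ((hmem _).mpr ⟨a, rfl⟩) v)
  exact ⟨L, _, _, φ, hfinL, hinj, hmem, hfr, m, by rw [hm, hfr], P, hP1, hP2, hP3⟩

/-- The case of an odd prime different from the characteristic. -/
theorem block_case {k : ℕ} (hd : 2 ≤ d) (hk : k.Prime) (hK : IsFieldSubalgebra k K)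
    (hKf : IsSelfAdjointFor (sympForm d F) K) (hKalt : ∀ a ∈ K, ∀ v : Fin d ⊕ Fin d → F, sympForm d F (a *ᵥ v) v = 0)
    {r q : ℕ} [hrf : Fact r.Prime] (hq : Fintype.card F = q) (hr2 : r ≠ 2) (hrF : (r : F) ≠ 0)
    (hΩ : r ∣ (subalgebraNormalizer K).relIndex (spGL d F))
    (hx : ∀ x ∈ Cfsg.spGL d F, (∃ z : F, ((x ^ r : GL (Fin d ⊕ Fin d) F) : Matrix (Fin d ⊕ Fin d) (Fin d ⊕ Fin d) F) = z • (1 : Matrix (Fin d ⊕ Fin d) (Fin d ⊕ Fin d) F)) →
      (∀ z : F, (x : Matrix (Fin d ⊕ Fin d) (Fin d ⊕ Fin d) F) ≠ z • (1 : Matrix (Fin d ⊕ Fin d) (Fin d ⊕ Fin d) F)) →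
      ∃ g ∈ Cfsg.spGL d F, g⁻¹ * x * g ∈ Cfsg.Geo.subalgebraNormalizer K) : False := by
  classical
  have hr : r.Prime := hrf.out
  obtain ⟨L, _, _, φ, hfinL, hinj, hmem, hfr, m, hm, P, hP1, hP2, hP3⟩ := exists_full_model hk hK hKf hKalt
  have hm' : d = finrank F L * m := by rw [hfr]; exact hm
  have hcard : r ∣ Nat.card (symplecticGroup (Fin d) F) := by
    rw [← card_spGL'']
    exact hΩ.trans (Subgroup.relIndex_dvd_card _ _)
  have hle := block_le_of_dvd hq hrF hcard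
  obtain ⟨x, hxS, hxr, hxfix, hxns⟩ := exists_one_block hq hr2 hrF hle
  obtain ⟨g, hg, hN⟩ := hx x hxS ⟨1, by rw [hxr, one_smul]; rfl⟩ hxns
  set y := g⁻¹ * x * g with hy
  have hyS : y ∈ spGL d F := (spGL d F).mul_mem ((spGL d F).mul_mem ((spGL d F).inv_mem hg) hxS) hg
  have hyr : y ^ r = 1 := conj_pow_one x g hxr
  have hyfix : finrank F (fixS (Matrix.toLin' (y : Matrix (Fin d ⊕ Fin d) (Fin d ⊕ Fin d) F)) ⊤) + blockDim r q = 2 * d := by
    rw [hy, fix_conj_finrank]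
    exact hxfix
  have hkpos : 0 < k := hk.pos
  have hmpos : 0 < m := by
    rcases Nat.eq_zero_or_pos m with h | h
    · rw [h, mul_zero] at hm
      omega
    · exact h
  have hdk : k ≤ d := by
    rw [hm]
    exact Nat.le_mul_of_pos_right _ hmpos
  have hcomm : ∀ a, (y : Matrix (Fin d ⊕ Fin d) (Fin d ⊕ Fin d) F) * φ a = φ a * y := by
    intro a
    by_cases hrk : r = k
    · have h1 := blockDim_le hq hr2 hrF
      have h2 := range_add_fix (y : Matrix (Fin d ⊕ Fin d) (Fin d ⊕ Fin d) F)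
      have h3 : finrank F (LinearMap.range (Matrix.toLin' (y : Matrix (Fin d ⊕ Fin d) (Fin d ⊕ Fin d) F) - LinearMap.id)) < d := by
        have := hr.pos
        omega
      exact comm_of_rank_lt hK y hN h3 ((hmem _).mpr ⟨a, rfl⟩)
    · exact comm_of_pow hinj hmem hr (by rw [hfr]; exact hk) (by rw [hfr]; exact hrk) y hN hyr a
  haveI : Finite L := Module.finite_of_finite F
  have hdvd : finrank F L ∣ blockDim r q / 2 := dvd_of_block hq hr2 hrF
    (fun a u v => hKf (φ a) ((hmem _).mpr ⟨a, rfl⟩) u v)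
    (fun a v => hKalt (φ a) ((hmem _).mpr ⟨a, rfl⟩) v) y hyS hyr hcomm hyfix
  exact not_dvd_index_sp hq hrF (by rw [hfr]; exact hkpos) hm' hP1 hP2 hP3 hdvd hΩ

/-- The whole forward direction. -/
theorem forward {k : ℕ} (hd : 2 ≤ d) (hk : k.Prime) (hK : IsFieldSubalgebra k K)
    (hKf : IsSelfAdjointFor (sympForm d F) K) (hKalt : ∀ a ∈ K, ∀ v : Fin d ⊕ Fin d → F, sympForm d F (a *ᵥ v) v = 0)
    {r q : ℕ} [hrf : Fact r.Prime] (hq : Fintype.card F = q)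
    (hΩ : r ∣ (subalgebraNormalizer K).relIndex (spGL d F))
    (hx : ∀ x ∈ Cfsg.spGL d F, (∃ z : F, ((x ^ r : GL (Fin d ⊕ Fin d) F) : Matrix (Fin d ⊕ Fin d) (Fin d ⊕ Fin d) F) = z • (1 : Matrix (Fin d ⊕ Fin d) (Fin d ⊕ Fin d) F)) →
      (∀ z : F, (x : Matrix (Fin d ⊕ Fin d) (Fin d ⊕ Fin d) F) ≠ z • (1 : Matrix (Fin d ⊕ Fin d) (Fin d ⊕ Fin d) F)) →
      ∃ g ∈ Cfsg.spGL d F, g⁻¹ * x * g ∈ Cfsg.Geo.subalgebraNormalizer K) :
    r = 2 ∧ d = 2 ∧ k = 2 ∧ Odd q := by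
  classical
  have hr : r.Prime := hrf.out
  by_cases hrF : (r : F) = 0
  · exact (transv_case hd hk.two_le hK hrF hx).elim
  by_cases hr2 : r = 2
  · subst hr2
    have h2 : (2 : F) ≠ 0 := by exact_mod_cast hrF
    have hd2 : d = 2 := by
      by_contra hne
      exact invol_case (by omega) hk.two_le hK hKf hKalt h2 hx
    refine ⟨rfl, hd2, ?_, ?_⟩
    · obtain ⟨L, _, _, φ, hfinL, hinj, hmem, hfr, m, hm, -⟩ := exists_full_model hk hK hKf hKalt
      have h1 : k ∣ 2 := ⟨m, by rw [← hm, hd2]⟩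
      exact (Nat.prime_dvd_prime_iff_eq hk Nat.prime_two).mp h1
    · rw [← hq, Nat.odd_iff]
      apply FiniteField.odd_card_of_char_ne_two
      intro h
      apply h2
      have := ringChar.Nat.cast_ringChar (R := F)
      rw [h] at this
      exact_mod_cast this
  · exact (block_case hd hk hK hKf hKalt hq hr2 hrF hΩ hx).elim

end model

end Cfsg.Agent.Lib.SpField
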